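import Cfsg.Agent.Lib.H22.TwD4b
import Cfsg.Agent.Lib.H47.FoldMain

/-!
Folding D4 to G2.
-/

set_option autoImplicit false
set_option linter.unusedVariables false
set_option linter.unusedSectionVars false
set_option maxRecDepth 100000

namespace H47.FoldD4

open H22.RGD H22.Coord H22.RCCheck H22.RCComb H22.ChevTri H22.ChevRel H22.ChevSys H22.ChevMain
open H22.ChevStd H22.ChevSolv H22.ChevUni H22.St H22.TwChev H22.TwSt H22.RCPack H22.TwTab H22.TwX
open H22.TwDat H22.TwAut H22.ChevTorus H22.TwThm H22.TwPerf H22.TwMisc H22.TwD4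
open H47.TwFix H47.FoldCk H47.FoldMain
open Cfsg.Lie (ChevalleyDatum)
open scoped MatrixGroups Matrix

local notation "D4" => Cfsg.Lie.chevD4
local notation "X4" => H22.PoinD4.rcxD4
local notation "G2X" => H22.PoinG2.rcxG2
local notation "Z4" => H22.ChevLex.lexD4
local notation "W4" => certD4'
local notation "C2" => comb G2X

/-- the matrix of the folding -/
def BG : List (List (ℕ × ℤ)) := [[(0, 1), (2, 1), (3, 1)], [(1, 1)], [(4, -1)], [(5, -1)], [(6, -1), (7, -1), (10, 1)], [(8, 1), (11, -1), (12, -1)], [(9, 1), (14, 1), (15, 1)], [(13, 1)], [(18, 1)], [(16, 1), (17, 1), (22, 1)], [(19, -1), (20, -1), (23, 1)], [(21, 1), (24, -1), (25, -1)], [(26, -1)], [(27, -1)]]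

/-- the simple classes -/
def wl (J : Fin (Cfsg.Lie.chevG2).rank) : List ℕ := ([[18, 13, 12], [14]] : List (List ℕ)).getD J.val []

theorem two' (J : Fin (Cfsg.Lie.chevG2).rank) : J = (0 : Fin 2) ∨ J = (1 : Fin 2) := two J

theorem ckI_G : ckI D4 Cfsg.Lie.chevG2 BG = true := by decide +kernel
theorem ckP0 : ck D4 Cfsg.Lie.chevG2 BG [18, 13, 12] 7 64 = true := by decide +kernel
theorem ckN0 : ck D4 Cfsg.Lie.chevG2 BG [5, 10, 11] 4 64 = true := by decide +kernel
theorem ckP1 : ck D4 Cfsg.Lie.chevG2 BG [14] 6 64 = true := by decide +kernel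
theorem ckN1 : ck D4 Cfsg.Lie.chevG2 BG [9] 5 64 = true := by decide +kernel

variable (K : Type*) [Field K] [Finite K]

/-- multiplicativity -/
theorem hm : ∀ r < (D4).nroots, ∀ c d : K, c ≠ 0 → d ≠ 0 →
    (D4).hMat K r c * (D4).hMat K r d = (D4).hMat K r (c * d) := H22.St.hmul_all _ memD4

theorem sid : Function.Surjective (RingHom.id K) := Function.surjective_id

/-- the twisted system -/
noncomputable abbrev TT : TwD (gsys (RR K) X4 Z4 W4 (hm K)) C2 := T (RR K) (hm K) (RingHom.id K) (sid K)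

theorem fold : Fold G2X (TT K) BG wl 64 where
  len := by decide
  ckI := ckI_G
  ckP J := by
    rcases two' J with rfl | rfl
    · exact ckP0
    · exact ckP1
  ckN J := by
    rcases two' J with rfl | rfl
    · exact ckN0
    · exact ckN1
  orth J := by
    rcases two' J with rfl | rfl
    · show List.Pairwise _ [18, 13, 12]
      simp only [List.pairwise_cons, List.mem_cons, List.not_mem_nil, or_false, forall_eq_or_imp,
        forall_eq, List.Pairwise.nil, and_true, IsEmpty.forall_iff, implies_true]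
      exact ⟨⟨o1 _ _, o2 _ _⟩, o3 _ _⟩
    · exact List.pairwise_singleton _ _
  word J := by
    rcases two' J with rfl | rfl
    · rfl
    · rfl
  m J g := by
    rcases two' J with rfl | rfl
    · refine (m0 (RR K) (hm K) (RingHom.id K) (sid K)).trans ?_
      constructor
      · rintro ⟨t, _, rfl⟩
        exact ⟨t, by simp [wl, xs, mul_assoc, St]⟩
      · rintro ⟨t, rfl⟩
        exact ⟨t, rfl, by simp [wl, xs, mul_assoc, St]⟩
    · refine (m1 (RR K) (hm K) (RingHom.id K) (sid K)).trans ?_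
      constructor
      · rintro ⟨t, _, rfl⟩
        exact ⟨t, by simp [wl, St]⟩
      · rintro ⟨t, rfl⟩
        exact ⟨t, rfl, by simp [wl, St]⟩
  m' J g := by
    have e1 : (D4).neg 18 = 5 := rfl
    have e2 : (D4).neg 13 = 10 := rfl
    have e3 : (D4).neg 12 = 11 := rfl
    have e4 : (D4).neg 14 = 9 := rfl
    rcases two' J with rfl | rfl
    · refine (n0 (RR K) (hm K) (RingHom.id K) (sid K)).trans ?_
      constructor
      · rintro ⟨t, _, rfl⟩
        exact ⟨t, by simp [wl, xs, mul_assoc, St, e1, e2, e3]⟩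
      · rintro ⟨t, rfl⟩
        exact ⟨t, rfl, by simp [wl, xs, mul_assoc, St, e1, e2, e3]⟩
    · refine (n1 (RR K) (hm K) (RingHom.id K) (sid K)).trans ?_
      constructor
      · rintro ⟨t, _, rfl⟩
        exact ⟨t, by simp [wl, St, e4]⟩
      · rintro ⟨t, rfl⟩
        exact ⟨t, rfl, by simp [wl, St, e4]⟩
  tor L h1 h2 := hfix_le (RR K) (hm K) (RingHom.id K) (sid K) (fun _ => rfl) h1 h2
  faith := faithful (RR K) (hm K) (RingHom.id K) (sid K)

theorem cov1 : ∀ i : Fin 4, ∃ J : Fin 2, ttD4.cl.getD ((D4).simple i) 0 = Cfsg.Lie.chevG2.simple J := by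
  decide +kernel

theorem simp1 : ∀ J : Fin 2, ∀ r : Fin 24, ttD4.cl.getD r 0 = Cfsg.Lie.chevG2.simple J →
    ∃ i : Fin 4, r.val = (D4).simple i := by
  decide +kernel

theorem hcov : ∀ i, ∃ J, (TT K).cl ((comb X4).simple i) = (C2).simple J := by
  intro i
  obtain ⟨J, h⟩ := cov1 i
  exact ⟨J, Fin.ext h⟩

theorem hsimp : ∀ J r, (TT K).cl r = (C2).simple J → ∃ i, r = (comb X4).simple i := by
  intro J r h
  obtain ⟨i, hi⟩ := simp1 J r (congrArg Fin.val h)
  exact ⟨i, Fin.ext hi⟩

/-- the fixed points of the triality automorphism -/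
theorem main : Nonempty (↥(fx (TT K).σ) ≃* ↥(Cfsg.Lie.chevG2.group K)) :=
  iso_fx (H22.ChevAll.rel _ (by simp) K) G2X H22.ChevLex.lexG2 H22.StTab.certG2
    (H22.St.hmul_all _ (by simp)) (fold K) (hcov K) (hsimp K)

end H47.FoldD4
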