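import Mathlib

/-!
Semicontinuity of the rank of a matrix depending polynomially on a parameter.
-/

set_option autoImplicit false
set_option linter.unusedSimpArgs false

namespace H47.PolyRank

open Polynomial

/-- polynomial functions -/
def PolyFn (φ : ℂ → ℂ) : Prop := ∃ p : ℂ[X], ∀ a, φ a = p.eval a

theorem PolyFn.const (c : ℂ) : PolyFn (fun _ => c) := ⟨C c, fun a => by simp⟩

theorem PolyFn.id : PolyFn (fun a => a) := ⟨X, fun a => by simp⟩

theorem PolyFn.add {φ ψ : ℂ → ℂ} (h : PolyFn φ) (h' : PolyFn ψ) : PolyFn (fun a => φ a + ψ a) := by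
  obtain ⟨p, hp⟩ := h
  obtain ⟨q, hq⟩ := h'
  exact ⟨p + q, fun a => by simp only [eval_add, hp, hq]⟩

theorem PolyFn.mul {φ ψ : ℂ → ℂ} (h : PolyFn φ) (h' : PolyFn ψ) : PolyFn (fun a => φ a * ψ a) := by
  obtain ⟨p, hp⟩ := h
  obtain ⟨q, hq⟩ := h'
  exact ⟨p * q, fun a => by simp only [eval_mul, hp, hq]⟩

theorem PolyFn.sub {φ ψ : ℂ → ℂ} (h : PolyFn φ) (h' : PolyFn ψ) : PolyFn (fun a => φ a - ψ a) := by
  obtain ⟨p, hp⟩ := h
  obtain ⟨q, hq⟩ := h'
  exact ⟨p - q, fun a => by simp only [eval_sub, hp, hq]⟩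

theorem PolyFn.pow {φ : ℂ → ℂ} (h : PolyFn φ) (n : ℕ) : PolyFn (fun a => φ a ^ n) := by
  obtain ⟨p, hp⟩ := h
  exact ⟨p ^ n, fun a => by simp only [eval_pow, hp]⟩

theorem PolyFn.sum {ι : Type*} (s : Finset ι) {φ : ι → ℂ → ℂ} (h : ∀ i ∈ s, PolyFn (φ i)) :
    PolyFn (fun a => ∑ i ∈ s, φ i a) := by
  classical
  induction s using Finset.induction_on with
  | empty => simpa using PolyFn.const 0
  | insert i s hi ih =>
    simp only [Finset.sum_insert hi]
    exact (h i (Finset.mem_insert_self _ _)).add (ih fun j hj => h j (Finset.mem_insert_of_mem hj))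

theorem PolyFn.prod {ι : Type*} (s : Finset ι) {φ : ι → ℂ → ℂ} (h : ∀ i ∈ s, PolyFn (φ i)) :
    PolyFn (fun a => ∏ i ∈ s, φ i a) := by
  classical
  induction s using Finset.induction_on with
  | empty => simpa using PolyFn.const 1
  | insert i s hi ih =>
    simp only [Finset.prod_insert hi]
    exact (h i (Finset.mem_insert_self _ _)).mul (ih fun j hj => h j (Finset.mem_insert_of_mem hj))

theorem PolyFn.det {n : Type*} [Fintype n] [DecidableEq n] {A : ℂ → Matrix n n ℂ}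
    (h : ∀ i j, PolyFn (fun a => A a i j)) : PolyFn (fun a => (A a).det) := by
  simp only [Matrix.det_apply']
  exact PolyFn.sum _ fun σ _ => (PolyFn.const _).mul (PolyFn.prod _ fun i _ => h _ _)

theorem PolyFn.finite_zero {φ : ℂ → ℂ} (h : PolyFn φ) {a : ℂ} (ha : φ a ≠ 0) :
    {b | φ b = 0}.Finite := by
  obtain ⟨p, hp⟩ := h
  have hp0 : p ≠ 0 := by
    rintro rfl
    rw [hp, eval_zero] at ha
    exact ha rfl
  refine (p.roots.toFinset.finite_toSet).subset ?_
  intro b hb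
  rw [Set.mem_ofPred_eq, hp] at hb
  rw [Finset.mem_coe, Multiset.mem_toFinset, mem_roots hp0]
  exact hb

/-- polynomial families of linear maps -/
def PolyMap {m n : Type*} (A : ℂ → ((m → ℂ) →ₗ[ℂ] (n → ℂ))) : Prop :=
  ∀ v : m → ℂ, ∀ j, PolyFn (fun a => A a v j)

theorem PolyMap.comp {l m n : Type*} [Fintype m] [DecidableEq m]
    {A : ℂ → ((m → ℂ) →ₗ[ℂ] (n → ℂ))} {B : ℂ → ((l → ℂ) →ₗ[ℂ] (m → ℂ))}
    (hA : PolyMap A) (hB : PolyMap B) : PolyMap (fun a => A a ∘ₗ B a) := by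
  intro v j
  have h : ∀ a, (A a ∘ₗ B a) v j = ∑ k, B a v k * A a (Pi.single k 1) j := by
    intro a
    rw [LinearMap.comp_apply]
    conv_lhs => rw [← LinearMap.sum_single_apply (fun _ => ℂ) (B a v)]
    rw [map_sum, Finset.sum_apply]
    refine Finset.sum_congr rfl fun k _ => ?_
    have : (Pi.single k (B a v k) : m → ℂ) = B a v k • (Pi.single k (1 : ℂ) : m → ℂ) := by
      rw [← Pi.single_smul]; simp
    rw [this, map_smul]; simp
  simp only [h]
  exact PolyFn.sum _ fun k _ => (hB v k).mul (hA _ j)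

theorem PolyMap.const {m n : Type*} (A : (m → ℂ) →ₗ[ℂ] (n → ℂ)) : PolyMap (fun _ => A) :=
  fun v j => PolyFn.const (A v j)

theorem PolyMap.sum {m n κ : Type*} (s : Finset κ) {A : κ → ℂ → ((m → ℂ) →ₗ[ℂ] (n → ℂ))}
    (h : ∀ k ∈ s, PolyMap (A k)) : PolyMap (fun a => ∑ k ∈ s, A k a) := by
  intro v j
  simp only [LinearMap.sum_apply, Finset.sum_apply]
  exact PolyFn.sum _ fun k hk => h k hk v j

theorem PolyMap.smul {m n : Type*} {φ : ℂ → ℂ} {A : ℂ → ((m → ℂ) →ₗ[ℂ] (n → ℂ))}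
    (hφ : PolyFn φ) (h : PolyMap A) : PolyMap (fun a => φ a • A a) := by
  intro v j
  simp only [LinearMap.smul_apply, Pi.smul_apply, smul_eq_mul]
  exact hφ.mul (h v j)

/-- the rank is lower semicontinuous -/
theorem finite_lt {m n : Type*} [Finite m] [Finite n] {A : ℂ → ((m → ℂ) →ₗ[ℂ] (n → ℂ))}
    (hA : PolyMap A) (a₀ : ℂ) :
    {a | Module.finrank ℂ (LinearMap.range (A a)) <
      Module.finrank ℂ (LinearMap.range (A a₀))}.Finite := by
  classical
  have := Fintype.ofFinite m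
  have := Fintype.ofFinite n
  set r := Module.finrank ℂ (LinearMap.range (A a₀)) with hr
  let b : Module.Basis (Fin r) ℂ (LinearMap.range (A a₀)) := Module.finBasis ℂ _
  have hq : ∀ i : Fin r, ∃ v, A a₀ v = b i := fun i => (b i).2
  choose q hq using hq
  let Q : (Fin r → ℂ) →ₗ[ℂ] (m → ℂ) := Fintype.linearCombination ℂ q
  have hQ : ∀ x, (A a₀ ∘ₗ Q) x = ∑ i, x i • (b i : n → ℂ) := by
    intro x
    simp only [LinearMap.comp_apply, Q, Fintype.linearCombination_apply, map_sum, map_smul, hq]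
  have hinj : Function.Injective (A a₀ ∘ₗ Q) := by
    rw [← LinearMap.ker_eq_bot, LinearMap.ker_eq_bot']
    intro x hx
    rw [hQ] at hx
    have h1 : ∑ i, x i • b i = 0 := by
      apply Subtype.ext
      push_cast
      exact hx
    have h2 := Fintype.linearIndependent_iff.1 b.linearIndependent x h1
    exact funext h2
  obtain ⟨P, hP⟩ := LinearMap.exists_leftInverse_of_injective _ (LinearMap.ker_eq_bot.2 hinj)
  have hpoly : PolyMap (fun a => P ∘ₗ (A a ∘ₗ Q)) :=
    (PolyMap.const P).comp (hA.comp (PolyMap.const Q))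
  have hdet : PolyFn (fun a => (LinearMap.toMatrix' (P ∘ₗ (A a ∘ₗ Q))).det) := by
    apply PolyFn.det
    intro i j
    simp only [LinearMap.toMatrix'_apply]
    exact hpoly _ _
  have h1 : (LinearMap.toMatrix' (P ∘ₗ (A a₀ ∘ₗ Q))).det ≠ 0 := by
    rw [hP, LinearMap.toMatrix'_id, Matrix.det_one]; exact one_ne_zero
  refine (hdet.finite_zero (a := a₀) h1).subset ?_
  intro a ha
  rw [Set.mem_ofPred_eq] at ha ⊢
  by_contra hne
  have h2 : Function.Injective (P ∘ₗ (A a ∘ₗ Q)) := by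
    rw [← LinearMap.ker_eq_bot, LinearMap.ker_eq_bot']
    intro x hx
    have h3 : (LinearMap.toMatrix' (P ∘ₗ (A a ∘ₗ Q))).mulVec x = 0 := by
      rw [LinearMap.toMatrix'_mulVec]; exact hx
    by_contra hx0
    exact hne (Matrix.exists_mulVec_eq_zero_iff.1 ⟨x, hx0, h3⟩)
  have h4 : Function.Injective (A a ∘ₗ Q) := by
    intro x y hxy
    apply h2
    exact congrArg P hxy
  have h5 := LinearMap.finrank_range_of_inj h4
  rw [Module.finrank_fin_fun] at h5
  have h6 : LinearMap.range (A a ∘ₗ Q) ≤ LinearMap.range (A a) := LinearMap.range_comp_le_range _ _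
  have h7 := Submodule.finrank_mono h6
  omega

end H47.PolyRank
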