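import Mathlib
import Cfsg.Agent.Lib.H47.PolyRank
import Cfsg.Agent.Lib.H47.WeylComb

/-!
The operators of the generic Hecke algebra on functions on the Weyl group.
-/

set_option autoImplicit false
set_option linter.unusedSimpArgs false
set_option linter.unusedVariables false
set_option linter.unusedSectionVars false

namespace H47.Hecke

open H7.CoxComb H47.WeylComb H47.PolyRank

variable {W : Type*} [Group W] {ι : Type*} (f : ι → W)

open Classical in
/-- left multiplication by `T_i` (in the function model) -/
noncomputable def Lop (i : ι) (a : ℂ) : (W → ℂ) →ₗ[ℂ] (W → ℂ) where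
  toFun h := fun w => if len f w < len f (f i * w) then a * h (f i * w)
    else h (f i * w) + (a - 1) * h w
  map_add' h h' := by
    funext w
    simp only [Pi.add_apply]
    split_ifs <;> ring
  map_smul' c h := by
    funext w
    simp only [Pi.smul_apply, smul_eq_mul, RingHom.id_apply]
    split_ifs <;> ring

/-- inversion -/
def Jop : (W → ℂ) →ₗ[ℂ] (W → ℂ) := LinearMap.funLeft ℂ ℂ (fun w : W => w⁻¹)

@[simp] theorem Jop_apply (h : W → ℂ) (w : W) : Jop h w = h w⁻¹ := rfl

/-- right multiplication -/
noncomputable def Rop (i : ι) (a : ℂ) : (W → ℂ) →ₗ[ℂ] (W → ℂ) := Jop ∘ₗ Lop f i a ∘ₗ Jop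

/-- word operators -/
noncomputable def Lw : List ι → ℂ → ((W → ℂ) →ₗ[ℂ] (W → ℂ))
  | [], _ => LinearMap.id
  | i :: l, a => Lop f i a ∘ₗ Lw l a

/-- word operators -/
noncomputable def Rw : List ι → ℂ → ((W → ℂ) →ₗ[ℂ] (W → ℂ))
  | [], _ => LinearMap.id
  | i :: l, a => Rop f i a ∘ₗ Rw l a

/-- the commutation conditions -/
noncomputable def Mop (a : ℂ) : (W → ℂ) →ₗ[ℂ] (ι × W → ℂ) where
  toFun h := fun x => Lop f x.1 a h x.2 - Rop f x.1 a h x.2
  map_add' h h' := by
    funext w
    simp only [map_add, Pi.add_apply]
    ring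
  map_smul' c h := by
    funext w
    simp only [map_smul, Pi.smul_apply, smul_eq_mul, RingHom.id_apply]
    ring

variable {f} in
/-- a reduced word -/
noncomputable def word (h : IsInvGen f) (w : W) : List ι := (exists_red h w).choose

variable {f} in
theorem wp_word (h : IsInvGen f) (w : W) : wp f (word h w) = w := (exists_red h w).choose_spec.1

variable {f} in
theorem red_word (h : IsInvGen f) (w : W) : Red f (word h w) := (exists_red h w).choose_spec.2

/-- a bound for the length -/
noncomputable def N0 [Fintype W] : ℕ := ∑ w : W, len f w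

theorem len_le_N0 [Fintype W] (w : W) : len f w ≤ N0 f :=
  Finset.single_le_sum (f := fun w => len f w) (fun _ _ => Nat.zero_le _) (Finset.mem_univ w)

/-- the Casimir operator, with cleared denominators -/
noncomputable def Cop [Fintype W] (h : IsInvGen f) (a : ℂ) : (W → ℂ) →ₗ[ℂ] (W → ℂ) :=
  ∑ w : W, a ^ (N0 f - len f w) • (Lw f (word h w) a ∘ₗ Rw f (word h w) a)

theorem poly_Lop (i : ι) : PolyMap (Lop f i) := by
  intro h w
  show PolyFn (fun a => if len f w < len f (f i * w) then a * h (f i * w)
    else h (f i * w) + (a - 1) * h w)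
  split_ifs
  · exact PolyFn.id.mul (PolyFn.const _)
  · exact (PolyFn.const _).add ((PolyFn.id.sub (PolyFn.const _)).mul (PolyFn.const _))

variable [Fintype W]

theorem poly_Rop (i : ι) : PolyMap (Rop f i) := by
  classical
  exact (PolyMap.const Jop).comp ((poly_Lop f i).comp (PolyMap.const Jop))

theorem poly_Lw (l : List ι) : PolyMap (Lw f l) := by
  classical
  induction l with
  | nil => exact PolyMap.const _
  | cons i l ih => exact (poly_Lop f i).comp ih

theorem poly_Rw (l : List ι) : PolyMap (Rw f l) := by
  classical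
  induction l with
  | nil => exact PolyMap.const _
  | cons i l ih => exact (poly_Rop f i).comp ih

theorem poly_Cop (h : IsInvGen f) : PolyMap (Cop f h) := by
  classical
  exact PolyMap.sum _ fun w _ => PolyMap.smul (PolyFn.id.pow _) ((poly_Lw f _).comp (poly_Rw f _))

theorem poly_Mop : PolyMap (Mop f) := by
  intro h x
  show PolyFn (fun a => Lop f x.1 a h x.2 - Rop f x.1 a h x.2)
  exact (poly_Lop f x.1 h x.2).sub (poly_Rop f x.1 h x.2)

/-- good parameters: the image of the Casimir operator has the dimension of the centre -/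
def Good (h : IsInvGen f) (a : ℂ) : Prop :=
  Module.finrank ℂ (LinearMap.range (Cop f h a)) = Module.finrank ℂ (LinearMap.ker (Mop f a))

theorem rank_eq_of_good [Finite ι] (h : IsInvGen f) {a b : ℂ} (ha : Good f h a) (hb : Good f h b)
    (hinf : {c | Good f h c}.Infinite) :
    Module.finrank ℂ (LinearMap.range (Cop f h a)) =
      Module.finrank ℂ (LinearMap.range (Cop f h b)) := by
  have := Fintype.ofFinite ι
  have h1 := finite_lt (poly_Cop f h) a
  have h2 := finite_lt (poly_Cop f h) b
  have h3 := finite_lt (poly_Mop f) a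
  have h4 := finite_lt (poly_Mop f) b
  obtain ⟨c, hc, hcn⟩ := (hinf.sdiff ((h1.union h2).union (h3.union h4))).nonempty
  simp only [Set.mem_union, Set.mem_ofPred_eq, not_or, not_lt] at hcn
  obtain ⟨⟨h5, h6⟩, h7, h8⟩ := hcn
  have ra := LinearMap.finrank_range_add_finrank_ker (Mop f a)
  have rb := LinearMap.finrank_range_add_finrank_ker (Mop f b)
  have rc := LinearMap.finrank_range_add_finrank_ker (Mop f c)
  unfold Good at ha hb
  have hc' : Good f h c := hc
  unfold Good at hc'
  omega

end H47.Hecke
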