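import Mathlib
import Cfsg.Agent.Lib.H47.HeckeOp
import Cfsg.Agent.Lib.H47.WDistPar
import Cfsg.Agent.Lib.H18.CharCentral

/-!
The Hecke algebra operators for a finite group with a Weyl distance.
-/

set_option autoImplicit false
set_option linter.unusedSimpArgs false
set_option linter.unusedVariables false
set_option linter.unusedSectionVars false

namespace H47.HeckeWD

open Cfsg H7.CoxComb H47.WeylComb H47.WDist H47.Hecke
open scoped ComplexConjugate

universe u

variable {G : Type u} [Group G] [Fintype G] {W : Type*} [Group W] {ι : Type*} {f : ι → W}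
variable (S : WD G f)

open Classical in
/-- the double coset of `w` -/
noncomputable def Cl (w : W) : Finset G := Finset.univ.filter fun y => S.δ y = w

variable {S} in
theorem mem_Cl {w : W} {y : G} : y ∈ Cl S w ↔ S.δ y = w := by
  unfold Cl; simp

theorem inv_mem_Cl (h : IsInvGen f) {i : ι} {y : G} : y⁻¹ ∈ Cl S (f i) ↔ y ∈ Cl S (f i) := by
  rw [mem_Cl, mem_Cl, S.inv]
  constructor
  · intro e; rw [← inv_inv (S.δ y), e, inv_simple h]
  · intro e; rw [e, inv_simple h]

theorem sum_Cl_inv (h : IsInvGen f) (i : ι) (F : G → ℂ) :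
    ∑ y ∈ Cl S (f i), F y⁻¹ = ∑ y ∈ Cl S (f i), F y := by
  refine Finset.sum_nbij' (fun y => y⁻¹) (fun y => y⁻¹) ?_ ?_ ?_ ?_ ?_
  · intro y hy; exact (inv_mem_Cl S h).2 hy
  · intro y hy; exact (inv_mem_Cl S h).2 hy
  · intro y _; simp
  · intro y _; simp
  · intro y _; rfl

theorem sum_Cl_mul_right {b : G} (hb : b ∈ S.B) (w : W) (F : G → ℂ) :
    ∑ y ∈ Cl S w, F (y * b) = ∑ y ∈ Cl S w, F y := by
  refine Finset.sum_nbij' (fun y => y * b) (fun y => y * b⁻¹) ?_ ?_ ?_ ?_ ?_
  · intro y hy; rw [mem_Cl] at hy ⊢; rw [S.δ_mul_right hb]; exact hy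
  · intro y hy; rw [mem_Cl] at hy ⊢; rw [S.δ_mul_right (S.B.inv_mem hb)]; exact hy
  · intro y _; simp
  · intro y _; simp
  · intro y _; rfl

theorem sum_Cl_mul_left {b : G} (hb : b ∈ S.B) (w : W) (F : G → ℂ) :
    ∑ y ∈ Cl S w, F (b * y) = ∑ y ∈ Cl S w, F y := by
  refine Finset.sum_nbij' (fun y => b * y) (fun y => b⁻¹ * y) ?_ ?_ ?_ ?_ ?_
  · intro y hy; rw [mem_Cl] at hy ⊢; rw [S.δ_mul_left hb]; exact hy
  · intro y hy; rw [mem_Cl] at hy ⊢; rw [S.δ_mul_left (S.B.inv_mem hb)]; exact hy
  · intro y _; simp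
  · intro y _; simp
  · intro y _; rfl

open Classical in
theorem Cl_one : Cl S 1 = Finset.univ.filter fun y => y ∈ S.B := by
  classical
  ext y
  rw [mem_Cl, S.mem]
  simp

theorem card_Cl_one : (Cl S 1).card = Nat.card S.B := by
  classical
  rw [Cl_one, Nat.card_eq_fintype_card, ← Fintype.card_subtype]

open Classical in
theorem count (h : IsInvGen f) {i : ι} {w : W} (hl : len f w < len f (f i * w)) {y : G}
    (hy : S.δ y = f i * w) :
    ((Cl S (f i)).filter fun x => S.δ (x⁻¹ * y) = w).card = Nat.card S.B := by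
  obtain ⟨a, b, ha, hb, rfl⟩ := S.split y _ _ hy
  have : (Cl S (f i)).filter (fun x => S.δ (x⁻¹ * (a * b)) = w) = (Cl S 1).image (fun c => a * c) := by
    ext x
    rw [Finset.mem_filter, mem_Cl, Finset.mem_image]
    constructor
    · rintro ⟨h1, h2⟩
      refine ⟨a⁻¹ * x, ?_, by group⟩
      rw [mem_Cl]
      have h3 : S.δ a⁻¹ = f i := by rw [S.inv, ha, inv_simple h]
      rcases S.step i a⁻¹ x h3 with h4 | h4
      · rw [h4, h1, h.sq]
      · exfalso
        rw [h1] at h4
        have h5 := S.step_lt i (a⁻¹ * x) (x⁻¹ * (a * b)) h4 (by rw [h2]; exact hl)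
        rw [h2] at h5
        have h6 : a⁻¹ * x * (x⁻¹ * (a * b)) = b := by group
        rw [h6, hb] at h5
        rw [← h5] at hl
        exact lt_irrefl _ hl
    · rintro ⟨c, hc, rfl⟩
      rw [mem_Cl, S.mem] at hc
      refine ⟨by rw [S.δ_mul_right hc, ha], ?_⟩
      have h6 : (a * c)⁻¹ * (a * b) = c⁻¹ * b := by group
      rw [h6, S.δ_mul_left (S.B.inv_mem hc), hb]
  rw [this, Finset.card_image_of_injective _ (mul_right_injective a), card_Cl_one]

/-- product of cells -/
theorem sum_prod (h : IsInvGen f) {i : ι} {w : W} (hl : len f w < len f (f i * w)) (ψ : G → ℂ) :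
    ∑ x ∈ Cl S (f i), ∑ y ∈ Cl S w, ψ (x * y) = Nat.card S.B * ∑ y ∈ Cl S (f i * w), ψ y := by
  classical
  have h1 : ∀ x : G, ∑ y ∈ Cl S w, ψ (x * y) = ∑ y : G, if S.δ (x⁻¹ * y) = w then ψ y else 0 := by
    intro x
    have : Cl S w = Finset.univ.filter fun y => S.δ y = w := rfl
    rw [this, Finset.sum_filter]
    refine Fintype.sum_equiv (Equiv.mulLeft x) _ _ fun y => ?_
    simp
  simp_rw [h1]
  rw [Finset.sum_comm]
  have h2 : ∀ y : G, ∑ x ∈ Cl S (f i), (if S.δ (x⁻¹ * y) = w then ψ y else 0) =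
      if S.δ y = f i * w then (Nat.card S.B : ℂ) * ψ y else 0 := by
    intro y
    rw [← Finset.sum_filter, Finset.sum_const, nsmul_eq_mul]
    split_ifs with hy
    · rw [count S h hl hy]
    · have : (Cl S (f i)).filter (fun x => S.δ (x⁻¹ * y) = w) = ∅ := by
        rw [Finset.filter_eq_empty_iff]
        intro x hx e
        rw [mem_Cl] at hx
        apply hy
        have := S.step_lt i x (x⁻¹ * y) hx (by rw [e]; exact hl)
        rw [e] at this
        rw [← this]; congr 1; group
      rw [this]; simp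
  simp_rw [h2]
  rw [← Finset.sum_filter, ← Finset.mul_sum]
  rfl

/-- left convolution -/
noncomputable def lam (w : W) (φ : G → ℂ) : G → ℂ := fun g => ∑ y ∈ Cl S w, φ (y⁻¹ * g)

/-- right convolution -/
noncomputable def rho (w : W) (φ : G → ℂ) : G → ℂ := fun g => ∑ z ∈ Cl S w, φ (g * z)

theorem lam_rho (w w' : W) (φ : G → ℂ) : lam S w (rho S w' φ) = rho S w' (lam S w φ) := by
  funext g
  unfold lam rho
  rw [Finset.sum_comm]
  refine Finset.sum_congr rfl fun y _ => Finset.sum_congr rfl fun z _ => ?_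
  congr 1; group

theorem lam_comp (h : IsInvGen f) {i : ι} {w : W} (hl : len f w < len f (f i * w)) (φ : G → ℂ) :
    lam S (f i) (lam S w φ) = (Nat.card S.B : ℂ) • lam S (f i * w) φ := by
  funext g
  have := sum_prod S h hl (fun y => φ (y⁻¹ * g))
  rw [Pi.smul_apply, smul_eq_mul]
  unfold lam
  rw [← this]
  refine Finset.sum_congr rfl fun x _ => Finset.sum_congr rfl fun y _ => ?_
  congr 1; group

theorem rho_comp (h : IsInvGen f) {i : ι} {w : W} (hl : len f w < len f (f i * w)) (φ : G → ℂ) :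
    rho S (f i) (rho S w φ) = (Nat.card S.B : ℂ) • rho S (f i * w) φ := by
  funext g
  have := sum_prod S h hl (fun y => φ (g * y))
  rw [Pi.smul_apply, smul_eq_mul]
  unfold rho
  rw [← this]
  refine Finset.sum_congr rfl fun x _ => Finset.sum_congr rfl fun y _ => ?_
  congr 1; group

theorem card_B_ne : (Nat.card S.B : ℂ) ≠ 0 := by
  exact_mod_cast (Nat.card_pos (α := S.B)).ne'

/-- constant parameters -/
def Param (q : ℕ) : Prop := ∀ i, (Cl S (f i)).card = q * Nat.card S.B

variable {S} {q : ℕ}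

theorem card_Cl (h : IsInvGen f) (hq : Param S q) (w : W) :
    (Cl S w).card = q ^ len f w * Nat.card S.B := by
  obtain ⟨l, hl, hr⟩ := exists_red h w
  rw [← hl]
  clear hl
  induction l with
  | nil => rw [wp_nil, card_Cl_one, len_one, pow_zero, one_mul]
  | cons i l ih =>
    have hr2 := hr.tail h
    have hr' : len f (f i * wp f l) = l.length + 1 := by
      have := hr; unfold Red at this; rwa [wp_cons, List.length_cons] at this
    have hr2' : len f (wp f l) = l.length := hr2
    have hlt : len f (wp f l) < len f (f i * wp f l) := by omega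
    have h1 := sum_prod S h hlt (fun _ => 1)
    simp only [Finset.sum_const, nsmul_eq_mul, mul_one] at h1
    have h2 : (Cl S (f i)).card * (Cl S (wp f l)).card =
        Nat.card S.B * (Cl S (f i * wp f l)).card := by exact_mod_cast h1
    rw [hq i, ih hr2] at h2
    have hB : 0 < Nat.card S.B := Nat.card_pos
    rw [wp_cons]
    apply Nat.eq_of_mul_eq_mul_left hB
    rw [← h2, hr', hr2', pow_succ]
    ring

theorem lam_Lop (h : IsInvGen f) (hex : Exchange f) (hq : Param S q) (i : ι) (a : W → ℂ) :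
    lam S (f i) (fun g => a (S.δ g)) =
      (Nat.card S.B : ℂ) • (fun g => Lop f i (q : ℂ) a (S.δ g)) := by
  classical
  funext g
  rw [Pi.smul_apply, smul_eq_mul]
  have hq' : ((Cl S (f i)).card : ℂ) = q * Nat.card S.B := by exact_mod_cast hq i
  unfold lam
  show _ = (Nat.card S.B : ℂ) * (if len f (S.δ g) < len f (f i * S.δ g) then _ else _)
  have hinv : ∀ y ∈ Cl S (f i), S.δ y⁻¹ = f i := by
    intro y hy
    rw [S.inv, mem_Cl.1 hy, inv_simple h]
  split_ifs with hl
  · have h1 : ∀ y ∈ Cl S (f i), a (S.δ (y⁻¹ * g)) = a (f i * S.δ g) := by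
      intro y hy
      rw [S.step_lt i y⁻¹ g (hinv y hy) hl]
    rw [Finset.sum_congr rfl h1, Finset.sum_const, nsmul_eq_mul, hq']
    ring
  · have hne := len_simple_ne h hex i (S.δ g)
    set w := f i * S.δ g with hw
    have hgw : S.δ g = f i * w := by rw [hw, ← mul_assoc, h.sq, one_mul]
    have hlt : len f w < len f (f i * w) := by rw [← hgw]; omega
    have hc := count S h hlt hgw
    have h2 : ∀ y ∈ Cl S (f i), a (S.δ (y⁻¹ * g)) =
        a (S.δ g) + (if S.δ (y⁻¹ * g) = w then (a w - a (S.δ g)) else 0) := by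
      intro y hy
      split_ifs with e
      · rw [e]; ring
      · rcases S.step i y⁻¹ g (hinv y hy) with h3 | h3
        · exact absurd h3 e
        · rw [h3, add_zero]
    rw [Finset.sum_congr rfl h2, Finset.sum_add_distrib, Finset.sum_const, nsmul_eq_mul,
      ← Finset.sum_filter, Finset.sum_const, nsmul_eq_mul, hc, hq']
    ring

theorem rho_Rop (h : IsInvGen f) (hex : Exchange f) (hq : Param S q) (i : ι) (a : W → ℂ) :
    rho S (f i) (fun g => a (S.δ g)) =
      (Nat.card S.B : ℂ) • (fun g => Rop f i (q : ℂ) a (S.δ g)) := by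
  funext g
  have h1 := congrFun (lam_Lop h hex hq i (Jop a)) g⁻¹
  rw [Pi.smul_apply, smul_eq_mul] at h1 ⊢
  have h2 : Rop f i (q : ℂ) a (S.δ g) = Lop f i (q : ℂ) (Jop a) (S.δ g⁻¹) := by
    rw [S.inv]; rfl
  rw [h2, ← h1]
  unfold lam rho
  refine Finset.sum_congr rfl fun y _ => ?_
  show a (S.δ (g * y)) = a ((S.δ (y⁻¹ * g⁻¹))⁻¹)
  rw [← S.inv]
  congr 2; group

theorem lam_Lw (h : IsInvGen f) (hex : Exchange f) (hq : Param S q) (a : W → ℂ) (l : List ι)
    (hr : Red f l) : lam S (wp f l) (fun g => a (S.δ g)) =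
      (Nat.card S.B : ℂ) • (fun g => Lw f l (q : ℂ) a (S.δ g)) := by
  induction l with
  | nil =>
    funext g
    rw [Pi.smul_apply, smul_eq_mul, wp_nil]
    unfold lam
    have : ∀ y ∈ Cl S 1, a (S.δ (y⁻¹ * g)) = a (S.δ g) := by
      intro y hy
      rw [mem_Cl, S.mem] at hy
      rw [S.δ_mul_left (S.B.inv_mem hy)]
    rw [Finset.sum_congr rfl this, Finset.sum_const, nsmul_eq_mul, card_Cl_one]
    rfl
  | cons i l ih =>
    have hr2 := hr.tail h
    have hr' : len f (f i * wp f l) = l.length + 1 := by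
      have := hr; unfold Red at this; rwa [wp_cons, List.length_cons] at this
    have hr2' : len f (wp f l) = l.length := hr2
    have hlt : len f (wp f l) < len f (f i * wp f l) := by omega
    have h1 := lam_comp S h hlt (fun g => a (S.δ g))
    have h3 : lam S (f i) ((Nat.card S.B : ℂ) • (fun g => Lw f l (q : ℂ) a (S.δ g))) =
        (Nat.card S.B : ℂ) • lam S (f i) (fun g => Lw f l (q : ℂ) a (S.δ g)) := by
      funext g
      unfold lam
      simp only [Pi.smul_apply, smul_eq_mul, Finset.mul_sum]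
    rw [ih hr2, h3, lam_Lop h hex hq] at h1
    have h4 := smul_right_injective (G → ℂ) (card_B_ne S) h1
    rw [wp_cons, ← h4]
    rfl

theorem rho_Rw (h : IsInvGen f) (hex : Exchange f) (hq : Param S q) (a : W → ℂ) (l : List ι)
    (hr : Red f l) : rho S (wp f l) (fun g => a (S.δ g)) =
      (Nat.card S.B : ℂ) • (fun g => Rw f l (q : ℂ) a (S.δ g)) := by
  induction l with
  | nil =>
    funext g
    rw [Pi.smul_apply, smul_eq_mul, wp_nil]
    unfold rho
    have : ∀ y ∈ Cl S 1, a (S.δ (g * y)) = a (S.δ g) := by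
      intro y hy
      rw [mem_Cl, S.mem] at hy
      rw [S.δ_mul_right hy]
    rw [Finset.sum_congr rfl this, Finset.sum_const, nsmul_eq_mul, card_Cl_one]
    rfl
  | cons i l ih =>
    have hr2 := hr.tail h
    have hr' : len f (f i * wp f l) = l.length + 1 := by
      have := hr; unfold Red at this; rwa [wp_cons, List.length_cons] at this
    have hr2' : len f (wp f l) = l.length := hr2
    have hlt : len f (wp f l) < len f (f i * wp f l) := by omega
    have h1 := rho_comp S h hlt (fun g => a (S.δ g))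
    have h3 : rho S (f i) ((Nat.card S.B : ℂ) • (fun g => Rw f l (q : ℂ) a (S.δ g))) =
        (Nat.card S.B : ℂ) • rho S (f i) (fun g => Rw f l (q : ℂ) a (S.δ g)) := by
      funext g
      unfold rho
      simp only [Pi.smul_apply, smul_eq_mul, Finset.mul_sum]
    rw [ih hr2, h3, rho_Rop h hex hq] at h1
    have h4 := smul_right_injective (G → ℂ) (card_B_ne S) h1
    rw [wp_cons, ← h4]
    rfl

theorem ext_δ {a b : W → ℂ} (e : ∀ g, a (S.δ g) = b (S.δ g)) : a = b := by
  funext w
  obtain ⟨g, rfl⟩ := S.surj w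
  exact e g

/-- left and right operators commute -/
theorem Lop_Rop (h : IsInvGen f) (hex : Exchange f) (hq : Param S q) (i j : ι) (a : W → ℂ) :
    Lop f i (q : ℂ) (Rop f j (q : ℂ) a) = Rop f j (q : ℂ) (Lop f i (q : ℂ) a) := by
  apply ext_δ (S := S)
  intro g
  have hB := card_B_ne S
  apply mul_left_cancel₀ (mul_ne_zero hB hB)
  have h1 := congrFun (lam_Lop h hex hq i (Rop f j (q : ℂ) a)) g
  have h2 := congrFun (rho_Rop h hex hq j (Lop f i (q : ℂ) a)) g
  have h3 := congrFun (lam_rho S (f i) (f j) (fun g => a (S.δ g))) g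
  rw [rho_Rop h hex hq, lam_Lop h hex hq] at h3
  rw [Pi.smul_apply, smul_eq_mul] at h1 h2
  have h4 : lam S (f i) ((Nat.card S.B : ℂ) • fun g => Rop f j (q : ℂ) a (S.δ g)) g =
      (Nat.card S.B : ℂ) * lam S (f i) (fun g => Rop f j (q : ℂ) a (S.δ g)) g := by
    unfold lam; simp only [Pi.smul_apply, smul_eq_mul, Finset.mul_sum]
  have h5 : rho S (f j) ((Nat.card S.B : ℂ) • fun g => Lop f i (q : ℂ) a (S.δ g)) g =
      (Nat.card S.B : ℂ) * rho S (f j) (fun g => Lop f i (q : ℂ) a (S.δ g)) g := by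
    unfold rho; simp only [Pi.smul_apply, smul_eq_mul, Finset.mul_sum]
  rw [h4, h5, h1, h2] at h3
  rw [mul_assoc, mul_assoc]; exact h3

end H47.HeckeWD
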