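import Mathlib
import Cfsg.Agent.Lib.H47.HeckeWD
import Cfsg.Agent.Lib.H47.StIrr

/-!
The centre of the Hecke algebra and the constituents of the permutation character on chambers.
-/

set_option autoImplicit false
set_option linter.unusedSimpArgs false
set_option linter.unusedVariables false
set_option linter.unusedSectionVars false

namespace H47.HeckeChar

open Cfsg H7.CoxComb H47.WeylComb H47.WDist H47.Hecke H47.HeckeWD
open H18.CharOrtho H18.CharBasic H18.CharCentral H18.CharInd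
open scoped ComplexConjugate

universe u

variable {G : Type u} [Group G] [Fintype G] {W : Type*} [Group W] {ι : Type*} {f : ι → W}
variable {S : WD G f} {q : ℕ}

/-- averaging over a double coset -/
theorem orbit_sum (F : G → ℂ) (hF : ∀ y, ∀ b ∈ S.B, F (y * b) = F y) {x : G} {w : W}
    (hx : S.δ x = w) :
    ((Cl S w).card : ℂ) * ∑ b ∈ Cl S 1, F (b * x) = (Nat.card S.B : ℂ) * ∑ y ∈ Cl S w, F y := by
  have h1 : ∀ y ∈ Cl S w, ∑ b ∈ Cl S 1, F (b * y) = ∑ b ∈ Cl S 1, F (b * x) := by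
    intro y hy
    rw [mem_Cl] at hy
    obtain ⟨c, hc, c', hc', rfl⟩ := (S.cell x y).1 (hx.trans hy.symm)
    have h2 : ∀ b ∈ Cl S 1, F (b * (c * x * c')) = F ((b * c) * x) := by
      intro b _
      have e : b * (c * x * c') = b * c * x * c' := by group
      rw [e, hF _ c' hc']
    rw [Finset.sum_congr rfl h2]
    exact sum_Cl_mul_right S hc 1 (fun b => F (b * x))
  have h3 : ∑ y ∈ Cl S w, ∑ b ∈ Cl S 1, F (b * y) =
      ((Cl S w).card : ℂ) * ∑ b ∈ Cl S 1, F (b * x) := by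
    rw [Finset.sum_congr rfl h1, Finset.sum_const, nsmul_eq_mul]
  rw [← h3, Finset.sum_comm]
  have h4 : ∀ b ∈ Cl S 1, ∑ y ∈ Cl S w, F (b * y) = ∑ y ∈ Cl S w, F y := by
    intro b hb
    rw [mem_Cl, S.mem] at hb
    exact sum_Cl_mul_left S hb w F
  rw [Finset.sum_congr rfl h4, Finset.sum_const, nsmul_eq_mul, card_Cl_one]

/-- the Casimir operator as an average over the group -/
theorem Cop_avg [Fintype W] (h : IsInvGen f) (hex : Exchange f) (hq : Param S q) (hq0 : q ≠ 0)
    (a : W → ℂ) (g : G) :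
    (Nat.card S.B : ℂ) ^ 2 * Cop f h (q : ℂ) a (S.δ g) =
      (q : ℂ) ^ N0 f * ∑ b ∈ Cl S 1, ∑ x : G, a (S.δ (x⁻¹ * (b * g) * x)) := by
  classical
  have hB := card_B_ne S
  unfold Cop
  simp only [LinearMap.sum_apply, LinearMap.smul_apply, LinearMap.comp_apply, Finset.sum_apply,
    Pi.smul_apply, smul_eq_mul]
  have h1 : ∀ w : W, (Nat.card S.B : ℂ) ^ 2 *
      Lw f (word h w) (q : ℂ) (Rw f (word h w) (q : ℂ) a) (S.δ g) =
      ∑ z ∈ Cl S w, ∑ y ∈ Cl S w, a (S.δ (y⁻¹ * g * z)) := by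
    intro w
    have e1 := congrFun (lam_Lw h hex hq (Rw f (word h w) (q : ℂ) a) (word h w) (red_word h w)) g
    have e2 := rho_Rw h hex hq a (word h w) (red_word h w)
    rw [wp_word] at e1 e2
    rw [Pi.smul_apply, smul_eq_mul] at e1
    rw [sq, mul_assoc, ← e1]
    have e3 : (Nat.card S.B : ℂ) * lam S w (fun g => Rw f (word h w) (q : ℂ) a (S.δ g)) g =
        lam S w ((Nat.card S.B : ℂ) • fun g => Rw f (word h w) (q : ℂ) a (S.δ g)) g := by
      unfold lam; simp only [Pi.smul_apply, smul_eq_mul, Finset.mul_sum]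
    rw [e3, ← e2, lam_rho]
    unfold lam rho
    refine Finset.sum_congr rfl fun z _ => Finset.sum_congr rfl fun y _ => ?_
    have e4 : y⁻¹ * (g * z) = y⁻¹ * g * z := by group
    rw [e4]
  have h2 : ∀ w : W, ∑ z ∈ Cl S w, ∑ y ∈ Cl S w, a (S.δ (y⁻¹ * g * z)) =
      (q : ℂ) ^ len f w * ∑ x ∈ Cl S w, ∑ b ∈ Cl S 1, a (S.δ (x⁻¹ * (b * g) * x)) := by
    intro w
    rw [Finset.mul_sum]
    refine Finset.sum_congr rfl fun x hx => ?_
    have e1 := orbit_sum (S := S) (fun y => a (S.δ (y⁻¹ * g * x))) (by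
      intro y b hb
      have : (y * b)⁻¹ * g * x = b⁻¹ * (y⁻¹ * g * x) := by group
      rw [this, S.δ_mul_left (S.B.inv_mem hb)]) (mem_Cl.1 hx)
    have e2 : ((Cl S w).card : ℂ) = (q : ℂ) ^ len f w * Nat.card S.B := by
      rw [card_Cl h hq w]; push_cast; ring
    rw [e2] at e1
    have e3 : ∑ b ∈ Cl S 1, a (S.δ ((b * x)⁻¹ * g * x)) =
        ∑ b ∈ Cl S 1, a (S.δ (x⁻¹ * (b * g) * x)) := by
      refine Finset.sum_nbij' (fun b => b⁻¹) (fun b => b⁻¹) ?_ ?_ ?_ ?_ ?_
      · intro b hb; rw [mem_Cl, S.mem] at hb ⊢; exact S.B.inv_mem hb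
      · intro b hb; rw [mem_Cl, S.mem] at hb ⊢; exact S.B.inv_mem hb
      · intro b _; simp
      · intro b _; simp
      · intro b _; congr 2; group
    rw [e3] at e1
    apply mul_left_cancel₀ hB
    rw [← e1]; ring
  rw [Finset.mul_sum]
  have h3 : ∀ w : W, (Nat.card S.B : ℂ) ^ 2 * ((q : ℂ) ^ (N0 f - len f w) *
      Lw f (word h w) (q : ℂ) (Rw f (word h w) (q : ℂ) a) (S.δ g)) =
      (q : ℂ) ^ N0 f * ∑ x ∈ Cl S w, ∑ b ∈ Cl S 1, a (S.δ (x⁻¹ * (b * g) * x)) := by
    intro w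
    have e1 : (q : ℂ) ^ N0 f = (q : ℂ) ^ (N0 f - len f w) * (q : ℂ) ^ len f w := by
      rw [← pow_add, Nat.sub_add_cancel (len_le_N0 f w)]
    rw [e1, mul_assoc, ← h2, ← h1]; ring
  rw [Finset.sum_congr rfl fun w _ => h3 w, ← Finset.mul_sum]
  congr 1
  have h4 : ∀ F : G → ℂ, ∑ w : W, ∑ x ∈ Cl S w, F x = ∑ x : G, F x := fun F =>
    Finset.sum_fiberwise (s := Finset.univ) (g := S.δ) (f := F)
  rw [h4, Finset.sum_comm]

/-! ### the functions attached to the irreducible characters -/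

variable (S) in
/-- the average of `χ` over `B` (up to a factor) -/
noncomputable def ech (χ : G → ℂ) : G → ℂ := fun g => ∑ b ∈ Cl S 1, χ (b * g)

theorem ech_mul_left {χ : G → ℂ} {c : G} (hc : c ∈ S.B) (g : G) :
    ech S χ (c * g) = ech S χ g := by
  unfold ech
  rw [← sum_Cl_mul_right S hc 1 (fun b => χ (b * g))]
  refine Finset.sum_congr rfl fun b _ => ?_
  rw [mul_assoc]

theorem ech_mul_right {χ : G → ℂ} (hχ : IsClassFunction G χ) {c : G} (hc : c ∈ S.B) (g : G) :
    ech S χ (g * c) = ech S χ g := by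
  unfold ech
  rw [← sum_Cl_mul_left S hc 1 (fun b => χ (b * g))]
  refine Finset.sum_congr rfl fun b _ => ?_
  rw [← mul_assoc, classFunction_mul_comm hχ, ← mul_assoc]

variable (S) in
/-- the function on `W` -/
noncomputable def hch (χ : G → ℂ) : W → ℂ := fun w => ech S χ (S.rep w)

theorem hch_δ {χ : G → ℂ} (hχ : IsClassFunction G χ) (g : G) : hch S χ (S.δ g) = ech S χ g := by
  unfold hch
  obtain ⟨b, hb, b', hb', e⟩ := (S.cell g (S.rep (S.δ g))).1 (S.δ_rep _).symm
  rw [e, ech_mul_right hχ hb', ech_mul_left hb]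

/-- (A) the image of the Casimir operator -/
theorem Cop_mem [Fintype W] (h : IsInvGen f) (hex : Exchange f) (hq : Param S q) (hq0 : q ≠ 0)
    (a : W → ℂ) : Cop f h (q : ℂ) a ∈
      Submodule.span ℂ (Set.range fun χ : IrrCharacter G => hch S (χ : G → ℂ)) := by
  have := Fintype.ofFinite (IrrCharacter G)
  set ψ : G → ℂ := fun g => ∑ x : G, a (S.δ (x⁻¹ * g * x)) with hψ
  have hcl : IsClassFunction G ψ := by
    intro g y
    simp only [hψ]
    refine Fintype.sum_equiv (Equiv.mulLeft y⁻¹) _ _ fun x => ?_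
    simp only [Equiv.coe_mulLeft]
    congr 2; group
  have hB := card_B_ne S
  have key : Cop f h (q : ℂ) a = ∑ χ : IrrCharacter G,
      ((q : ℂ) ^ N0 f / (Nat.card S.B : ℂ) ^ 2 * classInner ψ (χ : G → ℂ)) • hch S (χ : G → ℂ) := by
    apply ext_δ (S := S)
    intro g
    apply mul_left_cancel₀ (pow_ne_zero 2 hB)
    rw [Cop_avg h hex hq hq0]
    have e1 : ∑ b ∈ Cl S 1, ∑ x : G, a (S.δ (x⁻¹ * (b * g) * x)) = ∑ b ∈ Cl S 1, ψ (b * g) := rfl
    have e2 : ∀ y, ψ y = ∑ χ : IrrCharacter G, classInner ψ (χ : G → ℂ) * (χ : G → ℂ) y := by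
      intro y
      have := congrFun (mem_classFun_expand hcl) y
      simpa only [Finset.sum_apply, Pi.smul_apply, smul_eq_mul] using this
    rw [e1, Finset.sum_congr rfl fun b _ => e2 (b * g)]
    simp only [Finset.sum_apply, Pi.smul_apply, smul_eq_mul]
    rw [Finset.sum_comm, Finset.mul_sum, Finset.mul_sum]
    refine Finset.sum_congr rfl fun χ _ => ?_
    rw [hch_δ (isClassFunction_of_isIrr χ.2), ← Finset.mul_sum]
    unfold ech
    field_simp
  rw [key]
  exact Submodule.sum_mem _ fun χ _ => Submodule.smul_mem _ _ (Submodule.subset_span ⟨χ, rfl⟩)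

/-- (B) the functions of the characters are central -/
theorem Mop_hch (h : IsInvGen f) (hex : Exchange f) (hq : Param S q) {χ : G → ℂ}
    (hχ : IsClassFunction G χ) : Mop f (q : ℂ) (hch S χ) = 0 := by
  funext x
  obtain ⟨i, v⟩ := x
  obtain ⟨g, rfl⟩ := S.surj v
  show Lop f i (q : ℂ) (hch S χ) (S.δ g) - Rop f i (q : ℂ) (hch S χ) (S.δ g) = 0
  rw [sub_eq_zero]
  apply mul_left_cancel₀ (card_B_ne S)
  have e1 := congrFun (lam_Lop h hex hq i (hch S χ)) g
  have e2 := congrFun (rho_Rop h hex hq i (hch S χ)) g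
  rw [Pi.smul_apply, smul_eq_mul] at e1 e2
  rw [← e1, ← e2]
  unfold lam rho
  simp only [hch_δ hχ]
  unfold ech
  rw [Finset.sum_comm]
  conv_rhs => rw [Finset.sum_comm]
  refine Finset.sum_congr rfl fun b hb => ?_
  rw [mem_Cl, S.mem] at hb
  have e3 : ∑ y ∈ Cl S (f i), χ (b * (y⁻¹ * g)) = ∑ y ∈ Cl S (f i), χ (y * g) := by
    rw [sum_Cl_inv S h i (fun y => χ (b * (y * g)))]
    rw [← sum_Cl_mul_left S hb (f i) (fun y => χ (y * g))]
    refine Finset.sum_congr rfl fun y _ => ?_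
    rw [mul_assoc]
  have e4 : ∑ z ∈ Cl S (f i), χ (b * (g * z)) = ∑ z ∈ Cl S (f i), χ (z * g) := by
    rw [← sum_Cl_mul_right S hb (f i) (fun z => χ (z * g))]
    refine Finset.sum_congr rfl fun z _ => ?_
    rw [classFunction_mul_comm hχ b, classFunction_mul_comm hχ (z * b)]
    simp only [mul_assoc]
  rw [e3, e4]

/-! ### positivity -/

variable (S) in
/-- the Hermitian form -/
noncomputable def ip (a b : W → ℂ) : ℂ := ∑ g : G, a (S.δ g) * conj (b (S.δ g))

theorem ip_self (a : W → ℂ) : ip S a a = ((∑ g : G, ‖a (S.δ g)‖ ^ 2 : ℝ) : ℂ) := by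
  unfold ip
  push_cast
  refine Finset.sum_congr rfl fun g _ => ?_
  rw [Complex.mul_conj, Complex.normSq_eq_norm_sq]
  push_cast; rfl

theorem ip_self_eq_zero {a : W → ℂ} (h0 : ip S a a = 0) : a = 0 := by
  rw [ip_self] at h0
  have h1 : ∑ g : G, ‖a (S.δ g)‖ ^ 2 = 0 := by exact_mod_cast h0
  rw [Finset.sum_eq_zero_iff_of_nonneg (fun _ _ => by positivity)] at h1
  apply ext_δ (S := S)
  intro g
  have := h1 g (Finset.mem_univ _)
  simpa using this

theorem ip_Lop (h : IsInvGen f) (hex : Exchange f) (hq : Param S q) (i : ι) (a b : W → ℂ) :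
    ip S (Lop f i (q : ℂ) a) b = ip S a (Lop f i (q : ℂ) b) := by
  have hB := card_B_ne S
  apply mul_left_cancel₀ hB
  have e1 : (Nat.card S.B : ℂ) * ip S (Lop f i (q : ℂ) a) b =
      ∑ g : G, ∑ y ∈ Cl S (f i), a (S.δ (y⁻¹ * g)) * conj (b (S.δ g)) := by
    unfold ip
    rw [Finset.mul_sum]
    refine Finset.sum_congr rfl fun g _ => ?_
    have := congrFun (lam_Lop h hex hq i a) g
    rw [Pi.smul_apply, smul_eq_mul] at this
    rw [← mul_assoc, ← this, ← Finset.sum_mul]
    rfl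
  have e2 : (Nat.card S.B : ℂ) * ip S a (Lop f i (q : ℂ) b) =
      ∑ g : G, ∑ y ∈ Cl S (f i), a (S.δ g) * conj (b (S.δ (y⁻¹ * g))) := by
    unfold ip
    rw [Finset.mul_sum]
    refine Finset.sum_congr rfl fun g _ => ?_
    have := congrFun (lam_Lop h hex hq i b) g
    rw [Pi.smul_apply, smul_eq_mul] at this
    rw [← Finset.mul_sum, ← map_sum]
    have e3 : ∑ y ∈ Cl S (f i), b (S.δ (y⁻¹ * g)) =
      (Nat.card S.B : ℂ) * Lop f i (q : ℂ) b (S.δ g) := this
    rw [e3, map_mul, Complex.conj_natCast]; ring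
  rw [e1, e2, Finset.sum_comm]
  conv_rhs => rw [Finset.sum_comm, ← sum_Cl_inv S h i]
  refine Finset.sum_congr rfl fun y _ => ?_
  refine Fintype.sum_equiv (Equiv.mulLeft y⁻¹) _ _ fun g => ?_
  simp

theorem Lw_append (l l' : List ι) (c : ℂ) (a : W → ℂ) : Lw f (l ++ l') c a = Lw f l c (Lw f l' c a) := by
  induction l with
  | nil => rfl
  | cons i l ih => simp only [List.cons_append, Lw, LinearMap.comp_apply, ih]

theorem ip_Lw (h : IsInvGen f) (hex : Exchange f) (hq : Param S q) (l : List ι) (a b : W → ℂ) :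
    ip S (Lw f l (q : ℂ) a) b = ip S a (Lw f l.reverse (q : ℂ) b) := by
  induction l generalizing a b with
  | nil => rfl
  | cons i l ih =>
    rw [List.reverse_cons, Lw_append]
    simp only [Lw, LinearMap.comp_apply, LinearMap.id_coe, id_eq]
    rw [ip_Lop h hex hq, ih]

theorem Rop_Lw (h : IsInvGen f) (hex : Exchange f) (hq : Param S q) (j : ι) (l : List ι)
    (a : W → ℂ) : Rop f j (q : ℂ) (Lw f l (q : ℂ) a) = Lw f l (q : ℂ) (Rop f j (q : ℂ) a) := by
  induction l with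
  | nil => rfl
  | cons i l ih =>
    simp only [Lw, LinearMap.comp_apply]
    rw [← Lop_Rop h hex hq, ih]

theorem Rw_central (h : IsInvGen f) (hex : Exchange f) (hq : Param S q) (l : List ι) {z : W → ℂ}
    (hz : Mop f (q : ℂ) z = 0) : Rw f l (q : ℂ) z = Lw f l.reverse (q : ℂ) z := by
  have hz' : ∀ i, Rop f i (q : ℂ) z = Lop f i (q : ℂ) z := by
    intro i
    funext w
    have := congrFun hz (i, w)
    exact (sub_eq_zero.1 this).symm
  induction l with
  | nil => rfl
  | cons i l ih =>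
    rw [List.reverse_cons, Lw_append]
    simp only [Rw, Lw, LinearMap.comp_apply, LinearMap.id_coe, id_eq]
    rw [ih, Rop_Lw h hex hq, hz']

theorem word_one (h : IsInvGen f) : word h 1 = [] := by
  have h1 := red_word h 1
  unfold Red at h1
  rw [wp_word, len_one] at h1
  exact List.length_eq_zero_iff.1 h1.symm

/-- (C) the Casimir operator is injective on the centre -/
theorem Cop_injOn [Fintype W] (h : IsInvGen f) (hex : Exchange f) (hq : Param S q) (hq0 : q ≠ 0)
    {z : W → ℂ} (hz : Mop f (q : ℂ) z = 0) (h0 : Cop f h (q : ℂ) z = 0) : z = 0 := by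
  classical
  have h1 : ip S (Cop f h (q : ℂ) z) z = ∑ w : W, (q : ℂ) ^ (N0 f - len f w) *
      ip S (Lw f (word h w).reverse (q : ℂ) z) (Lw f (word h w).reverse (q : ℂ) z) := by
    have e1 : ∀ w : W, ip S (Lw f (word h w).reverse (q : ℂ) z) (Lw f (word h w).reverse (q : ℂ) z) =
        ip S (Lw f (word h w) (q : ℂ) (Rw f (word h w) (q : ℂ) z)) z := by
      intro w
      rw [Rw_central h hex hq _ hz, ip_Lw h hex hq (word h w)]
    simp only [e1]
    unfold Cop ip
    simp only [LinearMap.sum_apply, LinearMap.smul_apply, LinearMap.comp_apply, Finset.sum_apply,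
      Pi.smul_apply, smul_eq_mul]
    simp only [Finset.sum_mul, Finset.mul_sum]
    rw [Finset.sum_comm]
    refine Finset.sum_congr rfl fun w _ => Finset.sum_congr rfl fun g _ => ?_
    ring
  have h2 : ip S (Cop f h (q : ℂ) z) z = 0 := by
    rw [h0]; unfold ip; simp
  rw [h2] at h1
  have h3 : ∀ w : W, (q : ℂ) ^ (N0 f - len f w) *
      ip S (Lw f (word h w).reverse (q : ℂ) z) (Lw f (word h w).reverse (q : ℂ) z) =
      (((q : ℝ) ^ (N0 f - len f w) *
        ∑ g : G, ‖Lw f (word h w).reverse (q : ℂ) z (S.δ g)‖ ^ 2 : ℝ) : ℂ) := by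
    intro w
    rw [ip_self]; push_cast; rfl
  rw [Finset.sum_congr rfl fun w _ => h3 w, ← Complex.ofReal_sum] at h1
  have h4 : ∑ w : W, ((q : ℝ) ^ (N0 f - len f w) *
        ∑ g : G, ‖Lw f (word h w).reverse (q : ℂ) z (S.δ g)‖ ^ 2) = 0 := by
    exact_mod_cast h1.symm
  rw [Finset.sum_eq_zero_iff_of_nonneg (fun _ _ => by positivity)] at h4
  have h5 := h4 1 (Finset.mem_univ _)
  rw [word_one h] at h5
  have hq' : (q : ℝ) ^ (N0 f - len f (1 : W)) ≠ 0 := pow_ne_zero _ (by exact_mod_cast hq0)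
  have h6 := (mul_eq_zero.1 h5).resolve_left hq'
  apply ip_self_eq_zero (S := S)
  rw [ip_self]
  have h7 : ∑ g : G, ‖z (S.δ g)‖ ^ 2 = 0 := h6
  rw [h7]; simp

/-- the range of the Casimir operator is the centre -/
theorem range_Cop [Fintype W] (h : IsInvGen f) (hex : Exchange f) (hq : Param S q) (hq0 : q ≠ 0) :
    LinearMap.range (Cop f h (q : ℂ)) =
      Submodule.span ℂ (Set.range fun χ : IrrCharacter G => hch S (χ : G → ℂ)) ∧
    LinearMap.range (Cop f h (q : ℂ)) = LinearMap.ker (Mop f (q : ℂ)) := by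
  have h1 : LinearMap.range (Cop f h (q : ℂ)) ≤
      Submodule.span ℂ (Set.range fun χ : IrrCharacter G => hch S (χ : G → ℂ)) := by
    rintro _ ⟨a, rfl⟩
    exact Cop_mem h hex hq hq0 a
  have h2 : Submodule.span ℂ (Set.range fun χ : IrrCharacter G => hch S (χ : G → ℂ)) ≤
      LinearMap.ker (Mop f (q : ℂ)) := by
    rw [Submodule.span_le]
    rintro _ ⟨χ, rfl⟩
    exact Mop_hch h hex hq (isClassFunction_of_isIrr χ.2)
  have h3 : LinearMap.ker (Mop f (q : ℂ)) ≤ LinearMap.range (Cop f h (q : ℂ)) := by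
    have hmaps : ∀ x ∈ LinearMap.ker (Mop f (q : ℂ)), Cop f h (q : ℂ) x ∈
        LinearMap.ker (Mop f (q : ℂ)) := fun x _ => h2 (h1 ⟨x, rfl⟩)
    have hinj : Function.Injective ((Cop f h (q : ℂ)).restrict hmaps) := by
      rw [← LinearMap.ker_eq_bot, LinearMap.ker_eq_bot']
      rintro ⟨z, hz⟩ e
      apply Subtype.ext
      exact Cop_injOn h hex hq hq0 hz (congrArg Subtype.val e)
    have hsurj := LinearMap.injective_iff_surjective.1 hinj
    intro z hz
    obtain ⟨y, hy⟩ := hsurj ⟨z, hz⟩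
    exact ⟨y, congrArg Subtype.val hy⟩
  exact ⟨le_antisymm h1 (h2.trans h3), le_antisymm (h1.trans h2) h3⟩

/-- orthogonality -/
theorem ip_hch {χ ψ : G → ℂ} (hχ : IsIrrCharacter G χ) (hψ : IsIrrCharacter G ψ) :
    ip S (hch S χ) (hch S ψ) = (Nat.card S.B : ℂ) * ((Nat.card G : ℂ) * classInner χ ψ / χ 1) *
      ∑ c ∈ Cl S 1, χ c := by
  unfold ip
  simp only [hch_δ (isClassFunction_of_isIrr hχ), hch_δ (isClassFunction_of_isIrr hψ)]
  unfold ech
  have h1 : ∀ g : G, (∑ b ∈ Cl S 1, χ (b * g)) * conj (∑ b ∈ Cl S 1, ψ (b * g)) =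
      ∑ b' ∈ Cl S 1, ∑ b ∈ Cl S 1, conj (ψ (b' * g)) * χ (b * g) := by
    intro g
    rw [map_sum, Finset.sum_mul_sum, Finset.sum_comm]
    refine Finset.sum_congr rfl fun b _ => Finset.sum_congr rfl fun b' _ => ?_
    ring
  simp only [h1]
  rw [Finset.sum_comm]
  have h2 : ∀ b' ∈ Cl S 1, ∑ g : G, ∑ b ∈ Cl S 1, conj (ψ (b' * g)) * χ (b * g) =
      ((Nat.card G : ℂ) * classInner χ ψ / χ 1) * ∑ c ∈ Cl S 1, χ c := by
    intro b' hb'
    rw [mem_Cl, S.mem] at hb'
    rw [Finset.sum_comm, ← sum_Cl_mul_right S (S.B.inv_mem hb') 1 (fun c => χ c), Finset.mul_sum]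
    refine Finset.sum_congr rfl fun b _ => ?_
    have hcl : IsClassFunction G (fun g => conj (ψ g)) :=
      isClassFunction_conj (isClassFunction_of_isIrr hψ)
    have h3 := sum_mul_shift hχ hcl (b * b'⁻¹)
    have h4 : ∑ g : G, conj (ψ g) * χ g = (Nat.card G : ℂ) * classInner χ ψ := by
      unfold classInner
      have hG := card_ne_zero' (G := G)
      rw [← mul_assoc, mul_inv_cancel₀ hG, one_mul]
      exact Finset.sum_congr rfl fun g _ => by ring
    rw [h4] at h3
    rw [← h3]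
    refine Fintype.sum_equiv (Equiv.mulLeft b') _ _ fun g => ?_
    simp only [Equiv.coe_mulLeft]
    rw [classFunction_mul_comm (isClassFunction_of_isIrr hχ) (b' * g)]
    congr 2; group
  rw [Finset.sum_congr rfl h2, Finset.sum_const, nsmul_eq_mul, card_Cl_one]
  ring

theorem inner_fpc {χ : G → ℂ} (hχ : IsIrrCharacter G χ) :
    (Nat.card S.B : ℂ) * classInner χ (fixedPointCharacter S.B) = ∑ c ∈ Cl S 1, χ c := by
  classical
  have : Fintype S.B := Fintype.ofFinite _
  rw [fpc_eq_ind, frobenius' _ _ (isClassFunction_of_isIrr hχ)]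
  unfold classInner
  simp only [map_one, mul_one]
  rw [← mul_assoc, mul_inv_cancel₀ (card_B_ne S), one_mul]
  exact (Finset.sum_subtype _ (fun x => by rw [mem_Cl, S.mem]) χ).symm

/-- the number of constituents is the rank of the Casimir operator -/
theorem finrank_range [Fintype W] (h : IsInvGen f) (hex : Exchange f) (hq : Param S q)
    (hq0 : q ≠ 0) : Module.finrank ℂ (LinearMap.range (Cop f h (q : ℂ))) =
      Nat.card {χ : IrrCharacter G // classInner (χ : G → ℂ) (fixedPointCharacter S.B) ≠ 0} := by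
  classical
  have hfin := instFiniteIrr (G := G)
  have := Fintype.ofFinite (IrrCharacter G)
  have hB := card_B_ne S
  have hG := card_ne_zero' (G := G)
  rw [(range_Cop h hex hq hq0).1]
  have h1 : Submodule.span ℂ (Set.range fun χ : IrrCharacter G => hch S (χ : G → ℂ)) =
      Submodule.span ℂ (Set.range fun χ : {χ : IrrCharacter G //
        classInner (χ : G → ℂ) (fixedPointCharacter S.B) ≠ 0} => hch S (χ.1 : G → ℂ)) := by
    apply le_antisymm
    · rw [Submodule.span_le]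
      rintro _ ⟨χ, rfl⟩
      by_cases hm : classInner (χ : G → ℂ) (fixedPointCharacter S.B) = 0
      · have e1 := inner_fpc (S := S) χ.2
        rw [hm, mul_zero] at e1
        have e2 := ip_hch (S := S) χ.2 χ.2
        rw [← e1, mul_zero] at e2
        have e3 : hch S (χ : G → ℂ) = 0 := ip_self_eq_zero (S := S) e2
        show hch S (χ : G → ℂ) ∈ _
        rw [e3]; exact Submodule.zero_mem _
      · exact Submodule.subset_span ⟨⟨χ, hm⟩, rfl⟩
    · apply Submodule.span_mono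
      rintro _ ⟨χ, rfl⟩
      exact ⟨χ.1, rfl⟩
  have h2 : LinearIndependent ℂ (fun χ : {χ : IrrCharacter G //
        classInner (χ : G → ℂ) (fixedPointCharacter S.B) ≠ 0} => hch S (χ.1 : G → ℂ)) := by
    rw [linearIndependent_iff']
    intro s c hc χ hχ
    have e1 : ip S (∑ ψ ∈ s, c ψ • hch S (ψ.1 : G → ℂ)) (hch S (χ.1 : G → ℂ)) = 0 := by
      rw [hc]; unfold ip; simp
    have e2 : ip S (∑ ψ ∈ s, c ψ • hch S (ψ.1 : G → ℂ)) (hch S (χ.1 : G → ℂ)) =
        ∑ ψ ∈ s, c ψ * ip S (hch S (ψ.1 : G → ℂ)) (hch S (χ.1 : G → ℂ)) := by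
      unfold ip
      simp only [Finset.sum_apply, Pi.smul_apply, smul_eq_mul, Finset.sum_mul, Finset.mul_sum]
      rw [Finset.sum_comm]
      refine Finset.sum_congr rfl fun ψ _ => Finset.sum_congr rfl fun g _ => by ring
    rw [e2, Finset.sum_eq_single χ] at e1
    · rcases mul_eq_zero.1 e1 with e3 | e3
      · exact e3
      · exfalso
        rw [ip_hch χ.1.2 χ.1.2, inner_irr_self χ.1.2, ← inner_fpc χ.1.2] at e3
        have h5 := irr_one_ne_zero χ.1.2
        have h6 := χ.2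
        simp only [mul_eq_zero, div_eq_zero_iff, hB, hG, h5, h6, or_false, one_ne_zero,
          false_or] at e3
    · intro ψ _ hne
      rw [ip_hch ψ.1.2 χ.1.2, inner_irr_ne ψ.1.2 χ.1.2
        (fun e => hne (Subtype.ext (Subtype.ext e)))]
      simp
    · intro hn; exact absurd hχ hn
  rw [h1, finrank_span_eq_card h2, Nat.card_eq_fintype_card]

/-- the parameter of a finite group with a Weyl distance is good -/
theorem good [Fintype W] (h : IsInvGen f) (hex : Exchange f) (hq : Param S q)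
    (hq0 : q ≠ 0) : Good f h (q : ℂ) := by
  unfold Good
  rw [(range_Cop h hex hq hq0).2]

end H47.HeckeChar
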