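import Mathlib
import Cfsg.Agent.Lib.H47.HeckeChar
import Cfsg.Agent.Lib.H47.ChevSt
import Cfsg.Agent.Lib.H22.ChevAll
import Cfsg.Agent.Lib.H22.ChevCox

/-!
The number of constituents of the permutation character on the cosets of `B`.
-/

set_option autoImplicit false
set_option linter.unusedSimpArgs false
set_option linter.unusedVariables false
set_option linter.unusedSectionVars false

namespace H47.HeckeFin

open Cfsg H7.CoxComb H47.WeylComb H47.WDist H47.Hecke H47.HeckeWD H47.HeckeChar
open H18.CharOrtho H18.CharBasic H18.CharCentral H18.CharInd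
open scoped ComplexConjugate

universe u

section general

variable {G : Type u} [Group G] [Fintype G]

/-- constituents of a character -/
theorem constituent_iff {θ : G → ℂ} (hθ : IsCharacter G θ) (χ : IrrCharacter G) :
    (∃ φ : G → ℂ, IsCharacter G φ ∧ θ = (χ : G → ℂ) + φ) ↔ classInner (χ : G → ℂ) θ ≠ 0 := by
  constructor
  · rintro ⟨φ, hφ, rfl⟩
    obtain ⟨n, hn⟩ := inner_char_natCast (isCharacter_of_isIrr χ.2) hφ
    rw [H18.CharOrtho.inner_add_right, inner_irr_self χ.2, hn]
    exact_mod_cast (by omega : 1 + n ≠ 0)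
  · intro h
    refine ⟨θ - (χ : G → ℂ), ?_, by simp⟩
    rw [isCharacter_iff]
    refine ⟨isClassFunction_sub (isClassFunction_of_isCharacter hθ) (isClassFunction_of_isIrr χ.2),
      fun ψ hψ => ?_⟩
    rw [H18.CharOrtho.inner_sub_left]
    obtain ⟨n, hn⟩ := inner_char_natCast hθ (isCharacter_of_isIrr hψ)
    by_cases e : (χ : G → ℂ) = ψ
    · rw [← e, inner_irr_self χ.2]
      rw [← e] at hn
      have hn0 : n ≠ 0 := by
        rintro rfl
        apply h
        rw [← H18.CharOrtho.inner_conj_symm, hn]; simp
      refine ⟨n - 1, ?_⟩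
      rw [hn, Nat.cast_sub (by omega)]; simp
    · rw [inner_irr_ne χ.2 hψ e, hn]
      exact ⟨n, by simp⟩

theorem card_const {θ : G → ℂ} (hθ : IsCharacter G θ) :
    Nat.card {χ : IrrCharacter G // ∃ φ : G → ℂ, IsCharacter G φ ∧ θ = (χ : G → ℂ) + φ} =
      Nat.card {χ : IrrCharacter G // classInner (χ : G → ℂ) θ ≠ 0} :=
  Nat.card_congr (Equiv.subtypeEquivRight fun χ => constituent_iff hθ χ)

variable {W : Type*} [Group W] {ι : Type*} {f : ι → W} (S : WD G f)

theorem card_Cl_eq (w : W) :
    (Cl S w).card = Nat.card {y : G ⧸ S.B // S.dist y = w} * Nat.card S.B := by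
  classical
  have h1 : (Cl S w).card = Nat.card {g : G // S.δ g = w} := by
    rw [Nat.card_eq_fintype_card, Fintype.card_subtype]
    unfold Cl
    congr
  rw [h1, ← Nat.card_prod]
  refine Nat.card_congr (Equiv.trans (Equiv.subtypeEquiv
    (Subgroup.groupEquivQuotientProdSubgroup (s := S.B)) (q := fun p => S.dist p.1 = w) ?_)
    (Equiv.prodSubtypeFstEquivSubtypeProd (p := fun y : G ⧸ S.B => S.dist y = w)))
  intro g
  rfl

end general

/-! ### the Weyl group itself -/

section self

variable {W : Type u} [Group W] {ι : Type*} {f : ι → W}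

/-- the trivial Weyl distance -/
def selfWD (f : ι → W) : WD W f where
  B := ⊥
  δ := id
  inv := fun g => rfl
  mem := fun g => by simp
  surj := fun w => ⟨w, rfl⟩
  cell := by
    intro g g'
    constructor
    · intro e; exact ⟨1, rfl, 1, rfl, by simpa using e.symm⟩
    · rintro ⟨b, hb, b', hb', rfl⟩
      rw [Subgroup.mem_bot] at hb hb'
      rw [hb, hb']; simp
  split := fun g w w' e => ⟨w, w', rfl, rfl, e⟩
  step := by
    intro i x y hx
    left
    show x * y = f i * y
    rw [show x = f i from hx]
  step_lt := by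
    intro i x y hx _
    show x * y = f i * y
    rw [show x = f i from hx]

theorem param_self [Fintype W] : Param (selfWD f) 1 := by
  classical
  intro i
  have h1 : Cl (selfWD f) (f i) = {f i} := by
    ext y
    rw [mem_Cl, Finset.mem_singleton]
    rfl
  rw [h1, Finset.card_singleton, one_mul]
  exact (Subgroup.card_bot).symm

theorem card_self [Fintype W] :
    Nat.card {χ : IrrCharacter W // classInner (χ : W → ℂ) (fixedPointCharacter (selfWD f).B) ≠ 0} =
      Nat.card (ConjClasses W) := by
  classical
  rw [← card_irr_eq_card_conjClasses]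
  refine Nat.card_congr (Equiv.subtypeUnivEquiv fun χ => ?_)
  intro h
  have h1 := inner_fpc (S := selfWD f) χ.2
  rw [h, mul_zero] at h1
  have h2 : Cl (selfWD f) 1 = {1} := by
    ext y
    rw [mem_Cl, Finset.mem_singleton]
    rfl
  rw [h2, Finset.sum_singleton] at h1
  exact irr_one_ne_zero χ.2 h1.symm

end self

/-! ### Chevalley groups -/

section chev

open H22.RGD H22.RCCheck H22.RCComb H22.ChevRel H22.ChevMain H47.SysWD H47.ChevSt
open Cfsg.Lie (ChevalleyDatum)
open scoped MatrixGroups Matrix

variable {D : ChevalleyDatum} {F : Type*} [Field F] [Fintype F] (R : Rel D F) (X : RCX D)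

theorem param_chev [Fintype (D.group F)] : Param (T R X) (Fintype.card F) := by
  intro i
  rw [card_Cl_eq]
  congr 1
  rw [card_dist, (chevSys R X).card_Um_const
    (fun r => H22.ChevOrder.card_rootSubgroup R X.rc rfl r.2) (Subtype.property _)]
  have h1 : (fW (comb X) i)⁻¹ = fW (comb X) i := inv_simple (isInvGen (comb X)) i
  rw [h1, coe_fW]
  have h2 : (comb X).len ((comb X).refl i) = 1 := by
    have := (comb X).len_mul_refl_of_pos 1 i (fun r => rfl) ((comb X).simple_pos i)
    rw [one_mul, (comb X).len_one] at this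
    omega
  rw [h2, pow_one]

include R in
theorem good_chev [Fintype (comb X).W] :
    Good (fW (comb X)) (isInvGen (comb X)) ((Fintype.card F : ℕ) : ℂ) := by
  have : Fintype (D.group F) := Fintype.ofFinite _
  exact good (S := T R X) (isInvGen (comb X)) (exchange (chevSys R X)) (param_chev R X)
    Fintype.card_ne_zero

include R in
theorem s2319 {M : CoxeterMatrix (Fin D.rank)}
    (hR : ∀ (p : ℕ) [Fact p.Prime], Rel D (ZMod p))
    (he : ∃ e : (comb X).W ≃* M.Group, ∀ i, e (H22.CoxIso.fr (comb X) i) = M.simple i) :
    Nat.card {χ : Cfsg.IrrCharacter ↥(D.group F) //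
      ∃ φ : ↥(D.group F) → ℂ, Cfsg.IsCharacter ↥(D.group F) φ ∧
        Cfsg.fixedPointCharacter ((D.borelSubgroup F).subgroupOf (D.group F)) =
          (χ : ↥(D.group F) → ℂ) + φ} = Nat.card (ConjClasses M.Group) := by
  obtain ⟨e, -⟩ := he
  have : Fintype (comb X).W := Fintype.ofFinite _
  have : Fintype (D.group F) := Fintype.ofFinite _
  have hB : (T R X).B = (D.borelSubgroup F).subgroupOf (D.group F) := by
    show (chevSys R X).B.subgroupOf _ = _
    rw [chevSys_B]
  rw [card_const (isCharacter_fpc _), ← hB, ← finrank_range (isInvGen (comb X))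
    (exchange (chevSys R X)) (param_chev R X) Fintype.card_ne_zero]
  have hinf : {c | Good (fW (comb X)) (isInvGen (comb X)) c}.Infinite := by
    refine Set.infinite_of_injective_forall_mem (f := fun p : Nat.Primes => ((p : ℕ) : ℂ)) ?_ ?_
    · intro p p' e
      have e' : ((p : ℕ) : ℂ) = ((p' : ℕ) : ℂ) := e
      exact Subtype.ext (by exact_mod_cast e')
    · intro p
      have : Fact (p : ℕ).Prime := ⟨p.2⟩
      have h1 := good_chev (hR p) X
      rw [ZMod.card] at h1
      exact h1
  have hgood1 : Good (fW (comb X)) (isInvGen (comb X)) ((1 : ℕ) : ℂ) :=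
    good (S := selfWD (fW (comb X))) (isInvGen (comb X)) (exchange (chevSys R X)) param_self
      one_ne_zero
  rw [rank_eq_of_good (fW (comb X)) (isInvGen (comb X)) (good_chev R X) hgood1 hinf,
    finrank_range (S := selfWD (fW (comb X))) (isInvGen (comb X)) (exchange (chevSys R X))
      param_self one_ne_zero, card_self]
  refine Nat.card_congr ?_
  exact {
    toFun := ConjClasses.map e.toMonoidHom
    invFun := ConjClasses.map e.symm.toMonoidHom
    left_inv := by
      intro c
      induction c using Quotient.inductionOn with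
      | h g =>
        show ConjClasses.mk (e.symm (e g)) = ConjClasses.mk g
        rw [e.symm_apply_apply]
    right_inv := by
      intro c
      induction c using Quotient.inductionOn with
      | h g =>
        show ConjClasses.mk (e (e.symm g)) = ConjClasses.mk g
        rw [e.apply_symm_apply] }

end chev

end H47.HeckeFin
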