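import Cfsg.Agent.Lib.H47.HomoData

/-!
Homocyclic Sylow subgroups of Chevalley groups, type B2.
-/

set_option autoImplicit false
set_option linter.unusedVariables false
set_option maxHeartbeats 1000000
set_option maxRecDepth 10000

namespace H47.HomoB2

open H22.RGD H22.Coord H22.RCCheck H22.RCComb H22.ChevTri H22.ChevRel H22.ChevSys H22.ChevMain
open H47.HomoCert H47.HomoTor H47.HomoData H22.PoinB2 H22.ChevOrder
open scoped MatrixGroups Matrix

/-- multiple of the inverse Cartan matrix -/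
def adj (i j : Fin Cfsg.Lie.chevB2.rank) : ℤ := (([[2, 2], [1, 2]] : List (List ℤ)).getD i []).getD j 0

theorem adj_mul : (Matrix.of adj) * (Matrix.of fun i j => (coord rcxB2).A i j) =
    ((2 : ℕ) : ℤ) • (1 : Matrix (Fin Cfsg.Lie.chevB2.rank) (Fin Cfsg.Lie.chevB2.rank) ℤ) := by
  have h : ∀ i j : Fin Cfsg.Lie.chevB2.rank, ∑ k, adj i k * (coord rcxB2).A k j = if i = j then 2 else 0 := by
    decide +kernel
  ext i j
  rw [Matrix.mul_apply, Matrix.smul_apply, Matrix.one_apply]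
  refine (h i j).trans ?_
  split_ifs <;> simp

/-- certificate for 1 -/
def ct1 : Ct where
  L := []
  P := [-1]
  b := [[1, 0], [0, 1]]
  lam := [[1, 0], [0, 1]]

theorem ok1 : ct1.ok rows 2 = true := by decide +kernel

/-- certificate for 2 -/
def ct2 : Ct where
  L := [1, 0, 1, 0]
  P := [1]
  b := [[1, 0], [0, -1]]
  lam := [[1, 0], [0, -1]]

theorem ok2 : ct2.ok rows 2 = true := by decide +kernel

/-- certificate for 4 -/
def ct4 : Ct where
  L := [1, 0]
  P := [1, 0]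
  b := [[0, 1]]
  lam := [[-1, 0]]

theorem ok4 : ct4.ok rows 2 = true := by decide +kernel

theorem cardDvd {F : Type*} [Field F] [Fintype F] {q : ℕ} (hq : Fintype.card F = q)
    (R : Rel Cfsg.Lie.chevB2 F) :
    Nat.card ↥(Cfsg.Lie.chevB2.group F) ∣ q ^ rcxB2.rc.half * (([2, 4] : List ℕ).map fun m => q ^ m - 1).prod := by
  have h := order_formula R rcxB2 hq (d := Nat.card (H22.ChevTorus.chi Cfsg.Lie.chevB2 F).ker) rfl
  have h2 := poly_B2 (q_pos hq)
  have h3 : (q - 1) ^ Cfsg.Lie.chevB2.rank * H22.Poincare.P (comb rcxB2) Cfsg.Lie.chevB2.rank q =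
      (([2, 4] : List ℕ).map fun m => q ^ m - 1).prod := by
    refine Eq.trans h2 ?_
    simp only [List.map_cons, List.map_nil, List.prod_cons, List.prod_nil, mul_one, mul_assoc]
  rw [h3] at h
  exact Dvd.intro_left _ h

theorem sylow {F : Type*} [Field F] [Fintype F] {q : ℕ} (hq : Fintype.card F = q) {r : ℕ}
    [hr : Fact r.Prime] (hrq : ¬ r ∣ q) (hrW : ¬ r ∣ ([2, 4] : List ℕ).prod)
    (hrG : r ∣ Nat.card ↥(Cfsg.Lie.chevB2.group F)) (P : Sylow r ↥(Cfsg.Lie.chevB2.group F)) :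
    Nonempty (↥(P : Subgroup ↥(Cfsg.Lie.chevB2.group F)) ≃*
      (Fin (([2, 4] : List ℕ).filter fun m => orderOf (q : ZMod r) ∣ m).length →
        Multiplicative (ZMod (r ^ ee r q)))) := by
  have hq2 : 2 ≤ q := by rw [← hq]; exact Fintype.one_lt_card
  have R := H22.ChevAll.rel Cfsg.Lie.chevB2 (by simp) F
  have RK := H22.ChevAll.rel Cfsg.Lie.chevB2 (by simp) (AlgebraicClosure F)
  have hmem := order_mem hrq hq2 (hrG.trans (cardDvd hq R))
  obtain ⟨m, hm, hdm⟩ := hmem
  have hds : ∀ m ∈ ([2, 4] : List ℕ), ∀ d ≤ m, d ∣ m → d ∈ ([1, 2, 4] : List ℕ) := by decide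
  have hm0 : 0 < m := by
    have : ∀ m ∈ ([2, 4] : List ℕ), 0 < m := by decide
    exact this m hm
  have hd := hds m hm _ (Nat.le_of_dvd hm0 hdm) hdm
  have hrc : ¬ r ∣ 2 := fun h => hrW (h.trans (by decide))
  simp only [List.mem_cons, List.not_mem_nil, or_false] at hd
  rcases hd with hd | hd | hd
  · exact main H22.ChevLex.lexB2 rowsOk adj_mul hq [2, 4] R RK (cardDvd hq R) hrq (by decide) hrW hrc ct1 ok1
      (by rw [hd]; decide) (dv1 hrq hq2 hd) P
  · exact main H22.ChevLex.lexB2 rowsOk adj_mul hq [2, 4] R RK (cardDvd hq R) hrq (by decide) hrW hrc ct2 ok2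
      (by rw [hd]; decide) (dv2 hrq hq2 hd) P
  · exact main H22.ChevLex.lexB2 rowsOk adj_mul hq [2, 4] R RK (cardDvd hq R) hrq (by decide) hrW hrc ct4 ok4
      (by rw [hd]; decide) (dv4 hrq hq2 hd) P

end H47.HomoB2
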