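import Cfsg.Agent.Lib.H47.HomoData

/-!
Homocyclic Sylow subgroups of Chevalley groups, type E8.
-/

set_option autoImplicit false
set_option linter.unusedVariables false
set_option maxHeartbeats 1000000
set_option maxRecDepth 10000

namespace H47.HomoE8

open H22.RGD H22.Coord H22.RCCheck H22.RCComb H22.ChevTri H22.ChevRel H22.ChevSys H22.ChevMain
open H47.HomoCert H47.HomoTor H47.HomoData H22.PoinE8 H22.ChevOrder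
open scoped MatrixGroups Matrix

/-- multiple of the inverse Cartan matrix -/
def adj (i j : Fin Cfsg.Lie.chevE8.rank) : ℤ := (([[4, 5, 7, 10, 8, 6, 4, 2], [5, 8, 10, 15, 12, 9, 6, 3], [7, 10, 14, 20, 16, 12, 8, 4], [10, 15, 20, 30, 24, 18, 12, 6], [8, 12, 16, 24, 20, 15, 10, 5], [6, 9, 12, 18, 15, 12, 8, 4], [4, 6, 8, 12, 10, 8, 6, 3], [2, 3, 4, 6, 5, 4, 3, 2]] : List (List ℤ)).getD i []).getD j 0

theorem adj_mul : (Matrix.of adj) * (Matrix.of fun i j => (coord rcxE8).A i j) =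
    ((1 : ℕ) : ℤ) • (1 : Matrix (Fin Cfsg.Lie.chevE8.rank) (Fin Cfsg.Lie.chevE8.rank) ℤ) := by
  have h : ∀ i j : Fin Cfsg.Lie.chevE8.rank, ∑ k, adj i k * (coord rcxE8).A k j = if i = j then 1 else 0 := by
    decide +kernel
  ext i j
  rw [Matrix.mul_apply, Matrix.smul_apply, Matrix.one_apply]
  refine (h i j).trans ?_
  split_ifs <;> simp

/-- certificate for 1 -/
def ct1 : Ct where
  L := []
  P := [-1]
  b := [[1, 0, 0, 0, 0, 0, 0, 0], [0, 1, 0, 0, 0, 0, 0, 0], [0, 0, 1, 0, 0, 0, 0, 0], [0, 0, 0, 1, 0, 0, 0, 0], [0, 0, 0, 0, 1, 0, 0, 0], [0, 0, 0, 0, 0, 1, 0, 0], [0, 0, 0, 0, 0, 0, 1, 0], [0, 0, 0, 0, 0, 0, 0, 1]]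
  lam := [[1, 0, 0, 0, 0, 0, 0, 0], [0, 1, 0, 0, 0, 0, 0, 0], [0, 0, 1, 0, 0, 0, 0, 0], [0, 0, 0, 1, 0, 0, 0, 0], [0, 0, 0, 0, 1, 0, 0, 0], [0, 0, 0, 0, 0, 1, 0, 0], [0, 0, 0, 0, 0, 0, 1, 0], [0, 0, 0, 0, 0, 0, 0, 1]]

theorem ok1 : ct1.ok rows 8 = true := by decide +kernel

/-- certificate for 2 -/
def ct2 : Ct where
  L := [7, 6, 5, 4, 3, 2, 1, 3, 4, 5, 6, 0, 2, 3, 4, 5, 1, 3, 4, 2, 3, 0, 2, 1, 3, 4, 5, 6, 7, 6, 5, 4, 3, 2, 1, 3, 4, 5, 6, 0, 2, 3, 4, 5, 1, 3, 4, 2, 3, 0, 2, 1, 3, 4, 5, 6, 7, 6, 5, 4, 3, 2, 1, 3, 4, 5, 6, 0, 2, 3, 4, 5, 1, 3, 4, 2, 3, 0, 2, 1, 3, 4, 5, 6, 0, 2, 3, 4, 5, 1, 3, 4, 2, 3, 0, 2, 1, 3, 4, 5, 1, 3, 4, 2, 3, 0, 2, 1, 3, 4, 2, 3, 0, 2, 1, 3, 0, 2, 1, 0]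
  P := [1]
  b := [[0, 0, 0, 0, 0, 0, 0, 1], [0, 0, 0, 1, 0, 0, 0, 0], [0, 0, 0, 0, 0, 0, 1, 0], [0, 0, -1, 0, -1, -1, 0, 0], [1, 0, 0, 0, 0, 0, 0, 0], [0, 1, 0, 0, 0, -1, 0, 0], [0, 0, 0, 0, 0, 1, 0, 0], [0, 0, 0, 0, 1, 0, 0, 0]]
  lam := [[0, 0, 0, 0, 0, 0, 0, 1], [0, 0, 0, 1, 0, 0, 0, 0], [0, 0, 0, 0, 0, 0, 1, 0], [0, 0, -1, 0, 0, 0, 0, 0], [1, 0, 0, 0, 0, 0, 0, 0], [0, 1, 0, 0, 0, 0, 0, 0], [0, 1, -1, 0, 0, 1, 0, 0], [0, 0, -1, 0, 1, 0, 0, 0]]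

theorem ok2 : ct2.ok rows 8 = true := by decide +kernel

/-- certificate for 3 -/
def ct3 : Ct where
  L := [5, 6, 4, 5, 3, 4, 2, 3, 0, 2, 1, 3, 4, 5, 6, 7, 6, 5, 4, 3, 2, 1, 3, 4, 5, 6, 0, 2, 3, 4, 5, 1, 3, 4, 2, 3, 0, 2, 1, 3, 4, 5, 6, 7, 4, 5, 1, 3, 4, 2, 3, 0, 2, 1, 3, 4, 5, 6, 3, 2, 1, 3, 4, 5, 4, 2, 3, 0, 2, 1, 3, 4, 3, 0, 2, 1, 3, 0, 2, 1]
  P := [1, 1]
  b := [[0, 0, 0, 0, 0, 0, -1, 0], [0, 0, 0, 1, 0, 0, 0, 0], [0, 0, -1, 0, 0, 0, 0, 0], [0, 0, 0, 0, 0, 0, 0, 1]]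
  lam := [[0, -1, 0, 0, 0, -1, 0, 0], [1, -1, 0, 0, -1, -1, 0, 0], [1, -1, 0, 0, -2, -1, 0, 0], [-1, -1, 0, 0, -1, 0, 0, 0]]

theorem ok3 : ct3.ok rows 8 = true := by decide +kernel

/-- certificate for 4 -/
def ct4 : Ct where
  L := [6, 7, 3, 4, 5, 6, 2, 3, 4, 5, 1, 3, 4, 2, 3, 0, 2, 1, 3, 4, 5, 6, 7, 5, 4, 2, 3, 0, 2, 1, 3, 4, 5, 6, 0, 2, 3, 4, 5, 1, 3, 4, 2, 3, 0, 2, 1, 3, 4, 5, 3, 2, 1, 3, 4, 1, 3, 2, 1, 0]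
  P := [1, 0]
  b := [[0, 0, 0, 0, 0, 0, 0, 1], [0, 0, 0, 0, 0, 1, 0, 0], [0, 1, 0, 0, 0, 0, 0, 0], [0, 0, 0, 0, 0, 0, -1, 0]]
  lam := [[0, 0, 0, 1, 1, 0, 0, 0], [1, 0, 2, 1, 1, 0, 0, 0], [-1, 0, -1, -1, 0, 0, 0, 0], [1, 0, 2, 1, 2, 0, 0, 0]]

theorem ok4 : ct4.ok rows 8 = true := by decide +kernel

/-- certificate for 5 -/
def ct5 : Ct where
  L := [5, 6, 7, 4, 5, 6, 3, 4, 5, 1, 3, 4, 2, 3, 0, 2, 1, 3, 4, 5, 6, 7, 3, 2, 1, 3, 4, 5, 6, 2, 3, 4, 5, 4, 3, 0, 2, 1, 3, 4, 3, 0, 2, 1, 3, 0, 2, 1]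
  P := [1, 1, 1, 1]
  b := [[0, 0, 0, 0, 1, 0, 0, 0], [1, 0, 0, 0, 0, 0, 0, 0]]
  lam := [[0, -1, -1, -2, 0, -1, 1, 0], [0, 0, -1, 0, 0, -2, -2, -1]]

theorem ok5 : ct5.ok rows 8 = true := by decide +kernel

/-- certificate for 6 -/
def ct6 : Ct where
  L := [5, 6, 4, 5, 3, 4, 2, 3, 0, 2, 1, 3, 4, 5, 6, 7, 2, 1, 3, 4, 5, 6, 3, 4, 5, 4, 3, 0, 2, 1, 3, 4, 3, 0, 2, 1, 3, 0, 2, 1]
  P := [1, -1]
  b := [[0, 0, 0, 0, 0, 1, 0, 0], [0, 0, 0, 0, 0, 0, 0, 1], [0, 0, 0, -1, 0, 0, 0, 0], [0, 0, 0, 0, 1, 0, 0, 0]]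
  lam := [[1, 0, 1, 0, 0, 0, -2, 0], [-1, -1, 0, 0, 0, 0, 1, 0], [-1, 0, 0, 0, 0, 0, -1, 0], [-2, 0, -1, 0, 0, 0, 0, 0]]

theorem ok6 : ct6.ok rows 8 = true := by decide +kernel

/-- certificate for 7 -/
def ct7 : Ct where
  L := [4, 2, 3, 0, 2, 1, 3, 4, 5, 6, 2, 3, 4, 5, 1, 3, 4, 2, 3, 2]
  P := [1, 1, 1, 1, 1, 1]
  b := [[0, -1, 0, 0, 0, 0, 1, 0]]
  lam := [[-1, -1, 0, -1, 0, -1, -1, 0]]

theorem ok7 : ct7.ok rows 8 = true := by decide +kernel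

/-- certificate for 8 -/
def ct8 : Ct where
  L := [2, 3, 4, 5, 6, 7, 6, 5, 1, 3, 4, 2, 3, 0, 2, 1, 3, 4, 5, 6, 2, 1, 3, 4, 5, 2, 1, 3, 4, 1, 3, 0]
  P := [1, 0, 0, 0]
  b := [[0, 0, 0, 0, 0, 0, 1, 0], [0, 1, 0, 0, 0, 0, 0, 0]]
  lam := [[-1, 0, -2, -2, -2, -2, 0, 1], [1, 0, 2, 2, 1, 1, 0, -1]]

theorem ok8 : ct8.ok rows 8 = true := by decide +kernel

/-- certificate for 9 -/
def ct9 : Ct where
  L := [0, 2, 3, 4, 5, 6, 7, 3, 2, 1, 3, 4, 5, 6, 5, 4, 3, 1]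
  P := [1, 0, 0, 1, 0, 0]
  b := [[0, 0, -1, 0, 1, 0, 0, 0]]
  lam := [[-1, -2, -3, 0, -3, -2, -1, 0]]

theorem ok9 : ct9.ok rows 8 = true := by decide +kernel

/-- certificate for 10 -/
def ct10 : Ct where
  L := [3, 4, 5, 6, 7, 3, 4, 5, 6, 3, 4, 5, 0, 2, 1, 3, 4, 0, 2, 1, 3, 0, 2, 1]
  P := [1, -1, 1, -1]
  b := [[0, 1, 0, 0, 0, 0, 0, 0], [0, 0, 0, 0, 0, 0, -1, 0]]
  lam := [[1, 0, 1, 0, 1, 1, 0, 1], [2, 0, 2, 1, 1, 1, 0, 1]]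

theorem ok10 : ct10.ok rows 8 = true := by decide +kernel

/-- certificate for 12 -/
def ct12 : Ct where
  L := [7, 4, 2, 3, 0, 2, 1, 3, 4, 5, 6, 3, 4, 5, 0, 2, 3, 4, 1, 3, 1, 0]
  P := [1, 0, -1, 0]
  b := [[0, -1, 0, 0, 0, 0, 0, 0], [0, 0, 0, 0, 0, 1, 0, 0]]
  lam := [[1, 0, 1, 1, 0, 0, -1, -1], [0, 0, 0, -1, 1, 0, 0, -1]]

theorem ok12 : ct12.ok rows 8 = true := by decide +kernel

/-- certificate for 14 -/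
def ct14 : Ct where
  L := [7, 3, 2, 1, 3, 4, 5, 6, 2, 3, 4, 5, 2, 1, 3, 4, 2, 0]
  P := [1, -1, 1, -1, 1, -1]
  b := [[0, 0, 0, 0, 0, 0, 1, 0]]
  lam := [[-1, -1, -1, 0, 0, -1, 0, 0]]

theorem ok14 : ct14.ok rows 8 = true := by decide +kernel

/-- certificate for 15 -/
def ct15 : Ct where
  L := [4, 5, 6, 7, 4, 5, 6, 3, 4, 0, 2, 1, 3, 0, 2, 1]
  P := [1, -1, 0, 1, -1, 1, 0, -1]
  b := [[0, 0, 0, 0, 0, 0, 1, 0]]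
  lam := [[-1, -1, -1, -1, -2, 0, 0, 1]]

theorem ok15 : ct15.ok rows 8 = true := by decide +kernel

/-- certificate for 18 -/
def ct18 : Ct where
  L := [7, 4, 5, 6, 2, 3, 4, 5, 0, 2, 1, 3, 1, 0]
  P := [1, 0, 0, -1, 0, 0]
  b := [[0, 0, 0, 0, 0, 0, 0, 1]]
  lam := [[0, 0, 0, 0, 0, 0, -1, 0]]

theorem ok18 : ct18.ok rows 8 = true := by decide +kernel

/-- certificate for 20 -/
def ct20 : Ct where
  L := [2, 3, 0, 2, 1, 3, 4, 5, 6, 7, 3, 4, 5, 0, 2, 1, 3, 4, 2, 3, 0, 2, 1, 0]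
  P := [1, 0, -1, 0, 1, 0, -1, 0]
  b := [[0, 0, 0, 0, 0, 0, 0, 1]]
  lam := [[1, 1, 2, 2, 1, 0, 0, 0]]

theorem ok20 : ct20.ok rows 8 = true := by decide +kernel

/-- certificate for 24 -/
def ct24 : Ct where
  L := [6, 7, 2, 3, 4, 5, 6, 5, 3, 4, 2, 1, 3, 0]
  P := [1, 0, 0, 0, -1, 0, 0, 0]
  b := [[0, 0, 1, 0, 0, 0, 0, 0]]
  lam := [[-1, -1, 0, 0, 0, 1, 1, 0]]

theorem ok24 : ct24.ok rows 8 = true := by decide +kernel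

/-- certificate for 30 -/
def ct30 : Ct where
  L := [5, 6, 7, 4, 3, 0, 2, 1]
  P := [1, 1, 0, -1, -1, -1, 0, 1]
  b := [[0, 0, 0, 0, 0, 0, 0, 1]]
  lam := [[-1, 0, -1, 0, -1, 0, 0, 0]]

theorem ok30 : ct30.ok rows 8 = true := by decide +kernel

theorem cardDvd {F : Type*} [Field F] [Fintype F] {q : ℕ} (hq : Fintype.card F = q)
    (R : Rel Cfsg.Lie.chevE8 F) :
    Nat.card ↥(Cfsg.Lie.chevE8.group F) ∣ q ^ rcxE8.rc.half * (([2, 8, 12, 14, 18, 20, 24, 30] : List ℕ).map fun m => q ^ m - 1).prod := by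
  have h := order_formula R rcxE8 hq (d := Nat.card (H22.ChevTorus.chi Cfsg.Lie.chevE8 F).ker) rfl
  have h2 := poly_E8 (q_pos hq)
  have h3 : (q - 1) ^ Cfsg.Lie.chevE8.rank * H22.Poincare.P (comb rcxE8) Cfsg.Lie.chevE8.rank q =
      (([2, 8, 12, 14, 18, 20, 24, 30] : List ℕ).map fun m => q ^ m - 1).prod := by
    refine Eq.trans h2 ?_
    simp only [List.map_cons, List.map_nil, List.prod_cons, List.prod_nil, mul_one, mul_assoc]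
  rw [h3] at h
  exact Dvd.intro_left _ h

theorem sylow {F : Type*} [Field F] [Fintype F] {q : ℕ} (hq : Fintype.card F = q) {r : ℕ}
    [hr : Fact r.Prime] (hrq : ¬ r ∣ q) (hrW : ¬ r ∣ ([2, 8, 12, 14, 18, 20, 24, 30] : List ℕ).prod)
    (hrG : r ∣ Nat.card ↥(Cfsg.Lie.chevE8.group F)) (P : Sylow r ↥(Cfsg.Lie.chevE8.group F)) :
    Nonempty (↥(P : Subgroup ↥(Cfsg.Lie.chevE8.group F)) ≃*
      (Fin (([2, 8, 12, 14, 18, 20, 24, 30] : List ℕ).filter fun m => orderOf (q : ZMod r) ∣ m).length →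
        Multiplicative (ZMod (r ^ ee r q)))) := by
  have hq2 : 2 ≤ q := by rw [← hq]; exact Fintype.one_lt_card
  have R := H22.ChevAll.rel Cfsg.Lie.chevE8 (by simp) F
  have RK := H22.ChevAll.rel Cfsg.Lie.chevE8 (by simp) (AlgebraicClosure F)
  have hmem := order_mem hrq hq2 (hrG.trans (cardDvd hq R))
  obtain ⟨m, hm, hdm⟩ := hmem
  have hds : ∀ m ∈ ([2, 8, 12, 14, 18, 20, 24, 30] : List ℕ), ∀ d ≤ m, d ∣ m → d ∈ ([1, 2, 3, 4, 5, 6, 7, 8, 9, 10, 12, 14, 15, 18, 20, 24, 30] : List ℕ) := by decide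
  have hm0 : 0 < m := by
    have : ∀ m ∈ ([2, 8, 12, 14, 18, 20, 24, 30] : List ℕ), 0 < m := by decide
    exact this m hm
  have hd := hds m hm _ (Nat.le_of_dvd hm0 hdm) hdm
  have hrc : ¬ r ∣ 1 := fun h => hrW (h.trans (by decide))
  simp only [List.mem_cons, List.not_mem_nil, or_false] at hd
  rcases hd with hd | hd | hd | hd | hd | hd | hd | hd | hd | hd | hd | hd | hd | hd | hd | hd | hd
  · exact main H22.ChevLex.lexE8 rowsOk adj_mul hq [2, 8, 12, 14, 18, 20, 24, 30] R RK (cardDvd hq R) hrq (by decide) hrW hrc ct1 ok1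
      (by rw [hd]; decide) (dv1 hrq hq2 hd) P
  · exact main H22.ChevLex.lexE8 rowsOk adj_mul hq [2, 8, 12, 14, 18, 20, 24, 30] R RK (cardDvd hq R) hrq (by decide) hrW hrc ct2 ok2
      (by rw [hd]; decide) (dv2 hrq hq2 hd) P
  · exact main H22.ChevLex.lexE8 rowsOk adj_mul hq [2, 8, 12, 14, 18, 20, 24, 30] R RK (cardDvd hq R) hrq (by decide) hrW hrc ct3 ok3
      (by rw [hd]; decide) (dv3 hrq hq2 hd) P
  · exact main H22.ChevLex.lexE8 rowsOk adj_mul hq [2, 8, 12, 14, 18, 20, 24, 30] R RK (cardDvd hq R) hrq (by decide) hrW hrc ct4 ok4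
      (by rw [hd]; decide) (dv4 hrq hq2 hd) P
  · exact main H22.ChevLex.lexE8 rowsOk adj_mul hq [2, 8, 12, 14, 18, 20, 24, 30] R RK (cardDvd hq R) hrq (by decide) hrW hrc ct5 ok5
      (by rw [hd]; decide) (dv5 hrq hq2 hd) P
  · exact main H22.ChevLex.lexE8 rowsOk adj_mul hq [2, 8, 12, 14, 18, 20, 24, 30] R RK (cardDvd hq R) hrq (by decide) hrW hrc ct6 ok6
      (by rw [hd]; decide) (dv6 hrq hq2 hd) P
  · exact main H22.ChevLex.lexE8 rowsOk adj_mul hq [2, 8, 12, 14, 18, 20, 24, 30] R RK (cardDvd hq R) hrq (by decide) hrW hrc ct7 ok7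
      (by rw [hd]; decide) (dv7 hrq hq2 hd) P
  · exact main H22.ChevLex.lexE8 rowsOk adj_mul hq [2, 8, 12, 14, 18, 20, 24, 30] R RK (cardDvd hq R) hrq (by decide) hrW hrc ct8 ok8
      (by rw [hd]; decide) (dv8 hrq hq2 hd) P
  · exact main H22.ChevLex.lexE8 rowsOk adj_mul hq [2, 8, 12, 14, 18, 20, 24, 30] R RK (cardDvd hq R) hrq (by decide) hrW hrc ct9 ok9
      (by rw [hd]; decide) (dv9 hrq hq2 hd) P
  · exact main H22.ChevLex.lexE8 rowsOk adj_mul hq [2, 8, 12, 14, 18, 20, 24, 30] R RK (cardDvd hq R) hrq (by decide) hrW hrc ct10 ok10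
      (by rw [hd]; decide) (dv10 hrq hq2 hd) P
  · exact main H22.ChevLex.lexE8 rowsOk adj_mul hq [2, 8, 12, 14, 18, 20, 24, 30] R RK (cardDvd hq R) hrq (by decide) hrW hrc ct12 ok12
      (by rw [hd]; decide) (dv12 hrq hq2 hd) P
  · exact main H22.ChevLex.lexE8 rowsOk adj_mul hq [2, 8, 12, 14, 18, 20, 24, 30] R RK (cardDvd hq R) hrq (by decide) hrW hrc ct14 ok14
      (by rw [hd]; decide) (dv14 hrq hq2 hd) P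
  · exact main H22.ChevLex.lexE8 rowsOk adj_mul hq [2, 8, 12, 14, 18, 20, 24, 30] R RK (cardDvd hq R) hrq (by decide) hrW hrc ct15 ok15
      (by rw [hd]; decide) (dv15 hrq hq2 hd) P
  · exact main H22.ChevLex.lexE8 rowsOk adj_mul hq [2, 8, 12, 14, 18, 20, 24, 30] R RK (cardDvd hq R) hrq (by decide) hrW hrc ct18 ok18
      (by rw [hd]; decide) (dv18 hrq hq2 hd) P
  · exact main H22.ChevLex.lexE8 rowsOk adj_mul hq [2, 8, 12, 14, 18, 20, 24, 30] R RK (cardDvd hq R) hrq (by decide) hrW hrc ct20 ok20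
      (by rw [hd]; decide) (dv20 hrq hq2 hd) P
  · exact main H22.ChevLex.lexE8 rowsOk adj_mul hq [2, 8, 12, 14, 18, 20, 24, 30] R RK (cardDvd hq R) hrq (by decide) hrW hrc ct24 ok24
      (by rw [hd]; decide) (dv24 hrq hq2 hd) P
  · exact main H22.ChevLex.lexE8 rowsOk adj_mul hq [2, 8, 12, 14, 18, 20, 24, 30] R RK (cardDvd hq R) hrq (by decide) hrW hrc ct30 ok30
      (by rw [hd]; decide) (dv30 hrq hq2 hd) P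

end H47.HomoE8
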