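import Mathlib
import Cfsg.Agent.Lib.H99.Cyclic
import Cfsg.Agent.Lib.H48.Jordan
import Cfsg.Agent.Lib.H48.ClassCount

/-!
Jordan types of unipotent matrices: the multiset of block sizes as a complete invariant.
-/

set_option autoImplicit false
set_option linter.unusedVariables false

namespace H47.JordanCount

open Matrix

variable {F : Type*} [Field F]

theorem jb_eq (d : ℕ) : H99.Cyclic.jb d F = H48.Jordan.J0 d F := by
  ext a c
  rfl

/-- `M` has Jordan type `s` (as a multiset of positive block sizes) -/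
def HasType {n : ℕ} (M : Matrix (Fin n) (Fin n) F) (s : Multiset ℕ) : Prop :=
  (∀ a ∈ s, 0 < a) ∧ s.sum = n ∧ ∀ j, ((M - 1) ^ j).rank = (s.map (fun a => a - j)).sum

/-- the rank sequence determines the multiset -/
theorem multiset_eq {s t : Multiset ℕ} (hs : ∀ a ∈ s, 0 < a) (ht : ∀ a ∈ t, 0 < a)
    (h : ∀ j, (s.map (fun a => a - j)).sum = (t.map (fun a => a - j)).sum) : s = t := by
  -- number of elements `> j`
  have key : ∀ (s : Multiset ℕ) (j : ℕ), (s.map (fun a => a - j)).sum = (s.map (fun a => a - (j + 1))).sum +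
      Multiset.countP (fun a => j < a) s := by
    intro s j
    induction s using Multiset.induction with
    | empty => simp
    | cons a s ih =>
      rw [Multiset.map_cons, Multiset.sum_cons, ih, Multiset.map_cons, Multiset.sum_cons]
      by_cases hj : j < a
      · rw [Multiset.countP_cons_of_pos (p := fun a => j < a) _ hj]; omega
      · rw [Multiset.countP_cons_of_neg (p := fun a => j < a) _ hj]; omega
  have h1 : ∀ j, Multiset.countP (fun a => j < a) s = Multiset.countP (fun a => j < a) t := by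
    intro j
    have e1 := key s j
    have e2 := key t j
    rw [h j, h (j + 1)] at e1
    omega
  have key2 : ∀ (s : Multiset ℕ) (j : ℕ), Multiset.countP (fun a => j < a) s =
      Multiset.countP (fun a => j + 1 < a) s + Multiset.count (j + 1) s := by
    intro s j
    induction s using Multiset.induction with
    | empty => simp
    | cons a s ih =>
      by_cases hj : a = j + 1
      · subst hj
        rw [Multiset.countP_cons_of_pos _ (by omega), Multiset.countP_cons_of_neg _ (by omega), Multiset.count_cons_self, ih]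
        omega
      · rw [Multiset.count_cons_of_ne (Ne.symm hj)]
        by_cases hj2 : j < a
        · rw [Multiset.countP_cons_of_pos _ hj2, Multiset.countP_cons_of_pos _ (by omega), ih]
          omega
        · rw [Multiset.countP_cons_of_neg _ hj2, Multiset.countP_cons_of_neg _ (by omega), ih]
  ext a
  rcases Nat.eq_zero_or_pos a with ha | ha
  · subst ha
    rw [Multiset.count_eq_zero_of_notMem (fun h => absurd (hs 0 h) (lt_irrefl 0)),
      Multiset.count_eq_zero_of_notMem (fun h => absurd (ht 0 h) (lt_irrefl 0))]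
  · obtain ⟨j, rfl⟩ : ∃ j, a = j + 1 := ⟨a - 1, by omega⟩
    have e1 := key2 s j
    have e2 := key2 t j
    rw [h1 j, h1 (j + 1)] at e1
    omega

theorem hasType_unique {n : ℕ} {M : Matrix (Fin n) (Fin n) F} {s t : Multiset ℕ} (hs : HasType M s)
    (ht : HasType M t) : s = t :=
  multiset_eq hs.1 ht.1 fun j => by rw [← hs.2.2, ← ht.2.2]

theorem rank_reindex_block {n m : ℕ} (d : Fin m → ℕ) (e : (Σ i : Fin m, Fin (d i)) ≃ Fin n) (j : ℕ) :
    ((Matrix.reindex e e (Matrix.blockDiagonal' (fun i => H48.Jordan.J0 (d i) F))) ^ j).rank = ∑ i, (d i - j) := by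
  have h1 : (Matrix.reindex e e (Matrix.blockDiagonal' (fun i => H48.Jordan.J0 (d i) F))) ^ j =
      Matrix.reindex e e ((Matrix.blockDiagonal' (fun i => H48.Jordan.J0 (d i) F)) ^ j) := by
    have := map_pow (Matrix.reindexAlgEquiv F F e) (Matrix.blockDiagonal' (fun i => H48.Jordan.J0 (d i) F)) j
    exact this.symm
  rw [h1, Matrix.rank_reindex, ← Matrix.blockDiagonal'_pow, H48.Jordan.rank_blockDiagonal']
  exact Finset.sum_congr rfl fun k _ => H48.Jordan.rank_J0_pow _ _

/-- existence of the type -/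
theorem exists_type {n : ℕ} (M : Matrix (Fin n) (Fin n) F) {k : ℕ} (hM : (M - 1) ^ k = 0) :
    ∃ s : Multiset ℕ, HasType M s ∧ ∀ a ∈ s, a ≤ k := by
  obtain ⟨m, d, e, R, hd, hR, hNR⟩ := H99.Cyclic.exists_jordan_matrix (M - 1) k hM
  have hjb : (fun i => H99.Cyclic.jb (d i) F) = fun i => H48.Jordan.J0 (d i) F := by
    funext i; exact jb_eq _
  rw [hjb] at hNR
  set B := Matrix.reindex e e (Matrix.blockDiagonal' (fun i => H48.Jordan.J0 (d i) F)) with hB
  have hpow : ∀ j, (M - 1) ^ j * R = R * B ^ j := by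
    intro j
    induction j with
    | zero => simp
    | succ j ih => rw [pow_succ, mul_assoc, hNR, ← mul_assoc, ih, mul_assoc, ← pow_succ]
  have hRu : IsUnit R.det := isUnit_iff_ne_zero.2 hR
  have hrk : ∀ j, ((M - 1) ^ j).rank = ∑ i, (d i - j) := by
    intro j
    rw [← Matrix.rank_mul_eq_left_of_isUnit_det R _ hRu, hpow, Matrix.rank_mul_eq_right_of_isUnit_det R _ hRu,
      hB, rank_reindex_block]
  refine ⟨Multiset.map d Finset.univ.val, ⟨?_, ?_, ?_⟩, ?_⟩
  · intro a ha
    obtain ⟨i, -, rfl⟩ := Multiset.mem_map.1 ha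
    exact (hd i).1
  · have h1 : Fintype.card (Σ i : Fin m, Fin (d i)) = n := by
      rw [Fintype.card_congr e, Fintype.card_fin]
    rw [Fintype.card_sigma] at h1
    simp only [Fintype.card_fin] at h1
    exact h1
  · intro j
    rw [hrk, Multiset.map_map]
    rfl
  · intro a ha
    obtain ⟨i, -, rfl⟩ := Multiset.mem_map.1 ha
    exact (hd i).2

/-- every multiset of positive integers is a type -/
theorem exists_matrix (s : Multiset ℕ) (hs : ∀ a ∈ s, 0 < a) {n : ℕ} (hn : s.sum = n) :
    ∃ M : Matrix (Fin n) (Fin n) F, HasType M s := by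
  obtain ⟨l, rfl⟩ := Quot.exists_rep s
  have hsum : (∑ i : Fin l.length, l.get i) = n := by
    rw [← hn]
    rw [Fin.sum_univ_def]
    simp
  let d : Fin l.length → ℕ := fun i => l.get i
  have hc : Fintype.card (Σ i : Fin l.length, Fin (d i)) = n := by
    rw [Fintype.card_sigma]
    simp only [Fintype.card_fin]
    exact hsum
  let e : (Σ i : Fin l.length, Fin (d i)) ≃ Fin n := Fintype.equivFinOfCardEq hc
  refine ⟨1 + Matrix.reindex e e (Matrix.blockDiagonal' (fun i => H48.Jordan.J0 (d i) F)), hs, hn, ?_⟩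
  intro j
  rw [add_sub_cancel_left, rank_reindex_block]
  show _ = ((l : Multiset ℕ).map (fun a => a - j)).sum
  rw [Multiset.map_coe, Multiset.sum_coe, Fin.sum_univ_def]
  congr 1
  apply List.ext_get
  · simp
  · intro i h1 h2
    simp [d]

theorem pow_eq_zero_iff_type {n : ℕ} {M : Matrix (Fin n) (Fin n) F} {s : Multiset ℕ} (h : HasType M s) (k : ℕ) :
    (M - 1) ^ k = 0 ↔ ∀ a ∈ s, a ≤ k := by
  constructor
  · intro hk a ha
    have h1 := h.2.2 k
    rw [hk, Matrix.rank_zero] at h1
    have h2 := Multiset.sum_eq_zero_iff.1 h1.symm (a - k) (Multiset.mem_map_of_mem _ ha)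
    omega
  · intro hk
    apply H48.Jordan.eq_zero_of_rank
    rw [h.2.2]
    apply Multiset.sum_eq_zero
    intro x hx
    obtain ⟨a, ha, rfl⟩ := Multiset.mem_map.1 hx
    have := hk a ha
    omega

/-- the type is a complete invariant -/
theorem isConj_iff {n : ℕ} {M M' : Matrix (Fin n) (Fin n) F} {s t : Multiset ℕ} (hs : HasType M s) (ht : HasType M' t) :
    IsConj M M' ↔ s = t := by
  constructor
  · rintro ⟨c, hc⟩
    apply multiset_eq hs.1 ht.1
    intro j
    rw [← hs.2.2, ← ht.2.2]
    have hc' : (c : Matrix (Fin n) (Fin n) F) * M = M' * c := hc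
    have hpow : ∀ j, (c : Matrix (Fin n) (Fin n) F) * (M - 1) ^ j = (M' - 1) ^ j * c := by
      intro j
      induction j with
      | zero => simp
      | succ j ih => rw [pow_succ, ← mul_assoc, ih, mul_assoc, mul_sub, mul_one, hc', pow_succ, mul_assoc, sub_mul, one_mul]
    have hcu : IsUnit (c : Matrix (Fin n) (Fin n) F).det := (Matrix.isUnit_iff_isUnit_det _).1 c.isUnit
    rw [← Matrix.rank_mul_eq_right_of_isUnit_det (c : Matrix (Fin n) (Fin n) F) _ hcu, hpow,
      Matrix.rank_mul_eq_left_of_isUnit_det _ _ hcu]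
  · rintro rfl
    obtain ⟨k, hk⟩ : ∃ k, ∀ a ∈ s, a ≤ k := by
      refine ⟨n, fun a ha => ?_⟩
      rw [← hs.2.1]
      exact Multiset.single_le_sum (fun _ _ => Nat.zero_le _) a ha
    exact H48.Unip.isConj_of_unipotent ((pow_eq_zero_iff_type hs k).2 hk) ((pow_eq_zero_iff_type ht k).2 hk)
      (fun j => by rw [hs.2.2, ht.2.2])

/-- conjugacy in the general linear group and of matrices -/
theorem isConj_gl_iff {n : ℕ} (g h : GL (Fin n) F) : IsConj g h ↔ IsConj (g : Matrix (Fin n) (Fin n) F) h := by
  constructor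
  · intro hc
    obtain ⟨c, hc⟩ := _root_.isConj_iff.1 hc
    refine ⟨c, ?_⟩
    rw [← hc]
    show (c : Matrix (Fin n) (Fin n) F) * g = ((c * g * c⁻¹ : GL (Fin n) F) : Matrix (Fin n) (Fin n) F) * c
    rw [← Units.val_mul, ← Units.val_mul, inv_mul_cancel_right]
  · rintro ⟨c, hc⟩
    rw [_root_.isConj_iff]
    refine ⟨c, ?_⟩
    rw [mul_inv_eq_iff_eq_mul]
    exact Units.ext hc

end H47.JordanCount
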