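import Mathlib
import Cfsg.Agent.Lib.H47.AltHom
import Cfsg.Agent.Lib.H45.SL2Basic
import Cfsg.Agent.Lib.H50.PSLBasic
import Cfsg.Agent.Lib.H6.SLCard

/-!
`PSL₂(11)`: the subgroups isomorphic to `A₅`.
-/

set_option autoImplicit false
set_option linter.unusedVariables false
set_option linter.unusedSimpArgs false

namespace H47.PSL11

open H45.SL2

local instance : Fact (Nat.Prime 11) := ⟨by norm_num⟩

/-- `SL₂(11)` -/
abbrev S := Matrix.SpecialLinearGroup (Fin 2) (ZMod 11)

/-- `PSL₂(11)` -/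
abbrev G := Matrix.ProjectiveSpecialLinearGroup (Fin 2) (ZMod 11)

/-- the projection -/
def mk : S →* G := QuotientGroup.mk' _

theorem mk_surjective : Function.Surjective mk := QuotientGroup.mk'_surjective _

theorem mk_eq_one_iff (A : S) : mk A = 1 ↔ A.1 0 1 = 0 ∧ A.1 1 0 = 0 ∧ A.1 0 0 = A.1 1 1 := by
  have h1 : mk A = 1 ↔ (QuotientGroup.mk (1 : S) : G) = QuotientGroup.mk A := by
    rw [eq_comm]
    rfl
  rw [h1, H50.PSLBasic.mk_eq_mk_iff]
  constructor
  · rintro ⟨c, hc⟩
    have e1 := congrFun (congrFun hc 0) 1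
    have e2 := congrFun (congrFun hc 1) 0
    have e3 := congrFun (congrFun hc 0) 0
    have e4 := congrFun (congrFun hc 1) 1
    simp only [Matrix.smul_apply, Matrix.SpecialLinearGroup.coe_one, Matrix.one_apply_eq,
      Matrix.one_apply_ne (show (0 : Fin 2) ≠ 1 by decide), Matrix.one_apply_ne (show (1 : Fin 2) ≠ 0 by decide),
      smul_zero] at e1 e2 e3 e4
    exact ⟨e1, e2, e3.trans e4.symm⟩
  · rintro ⟨h01, h10, h⟩
    refine ⟨A.1 0 0, ?_⟩
    ext i j
    rw [Matrix.smul_apply, Matrix.SpecialLinearGroup.coe_one]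
    fin_cases i <;> fin_cases j
    · simp
    · simpa using h01
    · simpa using h10
    · simpa using h.symm

theorem mk_neg_eq (A B : S) (h : ∀ i j, B.1 i j = - A.1 i j) : mk A = mk B := by
  have h1 : mk A = mk B ↔ (QuotientGroup.mk A : G) = QuotientGroup.mk B := Iff.rfl
  rw [h1, H50.PSLBasic.mk_eq_mk_iff]
  refine ⟨-1, ?_⟩
  ext i j
  rw [Matrix.smul_apply, smul_eq_mul, neg_one_mul]
  exact h i j

/-! ### powers and traces -/

theorem mul_val (A B : S) : (A * B).1 = A.1 * B.1 := rfl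

theorem sq_val (A : S) : (A ^ 2).1 = tr A • A.1 - 1 := by
  have hd := det_eq A
  rw [pow_two, mul_val]
  ext i j
  rw [Matrix.mul_apply, Fin.sum_univ_two]
  fin_cases i <;> fin_cases j
  · simp [tr]; linear_combination -hd
  · simp [tr]; ring
  · simp [tr]; ring
  · simp [tr]; linear_combination -hd

theorem cube_val (A : S) : (A ^ 3).1 = (tr A ^ 2 - 1) • A.1 - tr A • (1 : Matrix (Fin 2) (Fin 2) (ZMod 11)) := by
  rw [pow_succ', mul_val, sq_val, mul_sub, Matrix.mul_smul, mul_one]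
  have : A.1 * A.1 = tr A • A.1 - 1 := by rw [← sq_val, pow_two]; rfl
  rw [this]
  module

theorem five_val (A : S) : (A ^ 5).1 = (tr A ^ 4 - 3 * tr A ^ 2 + 1) • A.1 -
    (tr A ^ 3 - 2 * tr A) • (1 : Matrix (Fin 2) (Fin 2) (ZMod 11)) := by
  have h1 : A ^ 5 = A ^ 2 * A ^ 3 := by rw [← pow_add]
  rw [h1, mul_val, sq_val, cube_val]
  have h2 : A.1 * A.1 = tr A • A.1 - 1 := by rw [← sq_val, pow_two]; rfl
  rw [sub_mul, mul_sub, one_mul, Matrix.smul_mul, Matrix.smul_mul, Matrix.mul_smul, Matrix.mul_smul, mul_one, h2]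
  module

theorem mk_eq_one_of_smul {A B : S} {u w : ZMod 11} (h : B.1 = u • A.1 - w • (1 : Matrix (Fin 2) (Fin 2) (ZMod 11)))
    (hB : mk B = 1) : u = 0 ∨ mk A = 1 := by
  rw [mk_eq_one_iff, h] at hB
  obtain ⟨h1, h2, h3⟩ := hB
  simp only [Matrix.sub_apply, Matrix.smul_apply, smul_eq_mul, Matrix.one_apply_eq,
    Matrix.one_apply_ne (show (0 : Fin 2) ≠ 1 by decide), Matrix.one_apply_ne (show (1 : Fin 2) ≠ 0 by decide),
    mul_zero, sub_zero, sub_left_inj, mul_one] at h1 h2 h3
  by_cases hu : u = 0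
  · exact Or.inl hu
  · right
    rw [mk_eq_one_iff]
    exact ⟨(mul_eq_zero.1 h1).resolve_left hu, (mul_eq_zero.1 h2).resolve_left hu, mul_left_cancel₀ hu h3⟩

theorem tr_of_sq {A : S} (h : mk A ^ 2 = 1) : tr A = 0 ∨ mk A = 1 := by
  rw [← map_pow] at h
  refine mk_eq_one_of_smul (u := tr A) (w := 1) ?_ h
  rw [sq_val, one_smul]

theorem tr_of_cube {A : S} (h : mk A ^ 3 = 1) : tr A ^ 2 - 1 = 0 ∨ mk A = 1 := by
  rw [← map_pow] at h
  exact mk_eq_one_of_smul (cube_val A) h

theorem tr_of_five {A : S} (h : mk A ^ 5 = 1) : tr A ^ 4 - 3 * tr A ^ 2 + 1 = 0 ∨ mk A = 1 := by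
  rw [← map_pow] at h
  exact mk_eq_one_of_smul (five_val A) h

theorem tr_sq (A : S) : tr (A ^ 2) = tr A ^ 2 - 2 := by
  have h := sq_val A
  unfold tr
  rw [h]
  simp [tr]
  ring

theorem root_five : ∀ t : ZMod 11, t ^ 4 - 3 * t ^ 2 + 1 = 0 → t = 7 ∨ t = 4 ∨ t ^ 2 - 2 = 7 := by
  decide

/-! ### the matrices -/

/-- the torus element -/
def β : S := mk2 3 0 0 4 (by decide)

/-- the involutions -/
def Ap : S := mk2 1 1 9 10 (by decide)

/-- the involutions -/
def Am : S := mk2 1 10 2 10 (by decide)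

theorem tr_β : tr β = 7 := by decide

theorem mk_β_ne : mk β ≠ 1 := by
  rw [Ne, mk_eq_one_iff]
  decide

/-- every element of order five or its square is conjugate to `β` -/
theorem exists_conj_β {g : G} (h5 : g ^ 5 = 1) (h1 : g ≠ 1) :
    ∃ k : ℕ, (k = 1 ∨ k = 2) ∧ ∃ x : G, x * g ^ k * x⁻¹ = mk β := by
  obtain ⟨A, rfl⟩ := mk_surjective g
  have ht := (tr_of_five h5).resolve_right h1
  have key : ∀ B : S, tr B = 7 → ∃ x : G, x * mk B * x⁻¹ = mk β := by
    intro B hB
    have hc : IsConj B β := isConj_of_tr_eq B β (by rw [hB, tr_β]) (by rw [hB]; decide)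
    obtain ⟨c, hc⟩ := isConj_iff.1 hc
    refine ⟨mk c, ?_⟩
    rw [← hc, map_mul, map_mul, map_inv]
  rcases root_five _ ht with h | h | h
  · refine ⟨1, Or.inl rfl, ?_⟩
    rw [pow_one]
    exact key A h
  · refine ⟨1, Or.inl rfl, ?_⟩
    rw [pow_one]
    have hd := det_eq A
    have hneg : mk A = mk (mk2 (-A.1 0 0) (-A.1 0 1) (-A.1 1 0) (-A.1 1 1) (by linear_combination hd)) := by
      apply mk_neg_eq
      intro i j
      fin_cases i <;> fin_cases j <;> rfl
    rw [hneg]
    apply key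
    have : tr (mk2 (-A.1 0 0) (-A.1 0 1) (-A.1 1 0) (-A.1 1 1) (by linear_combination hd)) = - tr A := by
      simp only [tr, mk2_00, mk2_11]
      ring
    rw [this, h]
    decide
  · refine ⟨2, Or.inr rfl, ?_⟩
    rw [← map_pow]
    apply key
    rw [tr_sq, h]

/-- elements commuting with `β` -/
theorem centralizer_β {g : G} (h : g * mk β * g⁻¹ = mk β) : ∃ k : ℕ, g = mk β ^ k := by
  obtain ⟨P, rfl⟩ := mk_surjective g
  have h1 : mk P * mk β = mk β * mk P := mul_inv_eq_iff_eq_mul.1 h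
  rw [← map_mul, ← map_mul] at h1
  have h2 : (QuotientGroup.mk (P * β) : G) = QuotientGroup.mk (β * P) := h1
  rw [H50.PSLBasic.mk_eq_mk_iff] at h2
  obtain ⟨c, hc⟩ := h2
  have e00 := congrFun (congrFun hc 0) 0
  have e01 := congrFun (congrFun hc 0) 1
  have e10 := congrFun (congrFun hc 1) 0
  have e11 := congrFun (congrFun hc 1) 1
  rw [Matrix.smul_apply, mul_00, mul_00] at e00
  rw [Matrix.smul_apply, mul_01, mul_01] at e01
  rw [Matrix.smul_apply, mul_10, mul_10] at e10
  rw [Matrix.smul_apply, mul_11, mul_11] at e11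
  have hd := det_eq P
  simp only [β, mk2_00, mk2_01, mk2_10, mk2_11, smul_eq_mul] at e00 e01 e10 e11
  revert hd e00 e01 e10 e11
  generalize hp : P.1 0 0 = p
  generalize hq : P.1 0 1 = q
  generalize hr : P.1 1 0 = r
  generalize hs : P.1 1 1 = s
  intro e00 e01 e10 e11 hd
  have hc1 : c = 1 := by
    by_contra hc1
    have hp0 : p = 0 := by
      have : p * 3 * (c - 1) = 0 := by linear_combination -e00
      have h3 : (3 : ZMod 11) ≠ 0 := by decide
      rcases mul_eq_zero.1 this with h | h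
      · exact (mul_eq_zero.1 h).resolve_right h3
      · exact absurd (sub_eq_zero.1 h) hc1
    have hs0 : s = 0 := by
      have : s * 4 * (c - 1) = 0 := by linear_combination -e11
      have h3 : (4 : ZMod 11) ≠ 0 := by decide
      rcases mul_eq_zero.1 this with h | h
      · exact (mul_eq_zero.1 h).resolve_right h3
      · exact absurd (sub_eq_zero.1 h) hc1
    rw [hp0, hs0] at hd
    have hq0 : q ≠ 0 := by rintro rfl; simp at hd
    have hr0 : r ≠ 0 := by rintro rfl; simp at hd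
    have h1 : (4 * c - 3) * q = 0 := by linear_combination -e01
    have h2 : (3 * c - 4) * r = 0 := by linear_combination -e10
    have h1' := (mul_eq_zero.1 h1).resolve_right hq0
    have h2' := (mul_eq_zero.1 h2).resolve_right hr0
    revert h1' h2'
    clear * -
    revert c
    decide
  rw [hc1] at e01 e10
  have hq0 : q = 0 := by linear_combination -e01
  have hr0 : r = 0 := by linear_combination e10
  rw [hq0, hr0] at hd
  have hps : p * s = 1 := by linear_combination hd
  have key : ∀ p s : ZMod 11, p * s = 1 → ∃ k : Fin 5, (p = 3 ^ (k : ℕ) ∧ s = 4 ^ (k : ℕ)) ∨ (p = -3 ^ (k : ℕ) ∧ s = - 4 ^ (k : ℕ)) := by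
    decide
  obtain ⟨k, hk⟩ := key p s hps
  refine ⟨k, ?_⟩
  have hβ : ∀ k : ℕ, ((β ^ k : S).1 0 0 = 3 ^ k ∧ (β ^ k : S).1 0 1 = 0) ∧ ((β ^ k : S).1 1 0 = 0 ∧ (β ^ k : S).1 1 1 = 4 ^ k) := by
    intro k
    induction k with
    | zero => simp
    | succ k ih =>
      obtain ⟨⟨h1, h2⟩, h3, h4⟩ := ih
      rw [pow_succ, mul_00, mul_01, mul_10, mul_11, h1, h2, h3, h4]
      simp only [β, mk2_00, mk2_01, mk2_10, mk2_11, zero_mul, mul_zero, add_zero, zero_add, pow_succ, and_self]
  obtain ⟨⟨h1, h2⟩, h3, h4⟩ := hβ k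
  rw [← map_pow]
  rcases hk with ⟨hk1, hk2⟩ | ⟨hk1, hk2⟩
  · congr 1
    apply ext4
    · rw [hp, h1, hk1]
    · rw [hq, h2, hq0]
    · rw [hr, h3, hr0]
    · rw [hs, h4, hk2]
  · symm
    apply mk_neg_eq
    intro i j
    fin_cases i <;> fin_cases j
    · show P.1 0 0 = - (β ^ (k : ℕ) : S).1 0 0
      rw [hp, h1, hk1]
    · show P.1 0 1 = - (β ^ (k : ℕ) : S).1 0 1
      rw [hq, h2, hq0, neg_zero]
    · show P.1 1 0 = - (β ^ (k : ℕ) : S).1 1 0
      rw [hr, h3, hr0, neg_zero]
    · show P.1 1 1 = - (β ^ (k : ℕ) : S).1 1 1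
      rw [hs, h4, hk2]

/-- the two groups -/
def Hp : Subgroup G := Subgroup.closure {mk Ap, mk β}

/-- the two groups -/
def Hm : Subgroup G := Subgroup.closure {mk Am, mk β}

/-- normal form of the involutions -/
theorem exists_torus {α : G} (h2 : α ^ 2 = 1) (h1 : α ≠ 1) (h3 : (α * mk β) ^ 3 = 1) (h4 : α * mk β ≠ 1) :
    ∃ x : G, x * mk β * x⁻¹ = mk β ∧ (x * α * x⁻¹ = mk Ap ∨ x * α * x⁻¹ = mk Am) := by
  obtain ⟨A, rfl⟩ := mk_surjective α
  have ht := (tr_of_sq h2).resolve_right h1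
  rw [← map_mul] at h3 h4
  have ht3 := (tr_of_cube h3).resolve_right h4
  have hd := det_eq A
  unfold tr at ht ht3
  rw [mul_00, mul_11] at ht3
  simp only [β, mk2_00, mk2_01, mk2_10, mk2_11] at ht3
  have hcase : (A.1 0 0 = 1 ∨ A.1 0 0 = -1) ∧ A.1 0 1 ≠ 0 := by
    revert ht ht3 hd
    generalize A.1 0 0 = x
    generalize A.1 0 1 = y
    generalize A.1 1 0 = z
    generalize A.1 1 1 = w
    intro ht ht3 hd
    have hw : w = -x := by linear_combination ht
    subst hw
    have hx : x ^ 2 - 1 = 0 := by linear_combination ht3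
    have hx1 : x = 1 ∨ x = -1 := by
      have : (x - 1) * (x + 1) = 0 := by linear_combination hx
      rcases mul_eq_zero.1 this with h | h
      · exact Or.inl (sub_eq_zero.1 h)
      · exact Or.inr (eq_neg_of_add_eq_zero_left h)
    refine ⟨hx1, ?_⟩
    rintro rfl
    have : -x ^ 2 = 1 := by linear_combination hd
    have h5 : (x ^ 2 : ZMod 11) = 1 := by linear_combination hx
    rw [h5] at this
    exact absurd this (by decide)
  -- reduce to `A.1 0 0 = 1`
  have key : ∀ B : S, B.1 0 0 = 1 → B.1 1 1 = -1 → B.1 0 1 ≠ 0 →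
      ∃ x : G, x * mk β * x⁻¹ = mk β ∧ (x * mk B * x⁻¹ = mk Ap ∨ x * mk B * x⁻¹ = mk Am) := by
    intro B h00 h11 h01
    have hdB := det_eq B
    have hsq : ∀ y : ZMod 11, y ≠ 0 → ∃ s : ZMod 11, s ≠ 0 ∧ (s * s * y = 1 ∨ s * s * y = -1) := by decide
    obtain ⟨s, hs, hsy⟩ := hsq _ h01
    let D : S := mk2 s 0 0 s⁻¹ (by rw [mul_inv_cancel₀ hs]; ring)
    refine ⟨mk D, ?_, ?_⟩
    · have : D * β = β * D := by
        apply ext4
        · rw [mul_00, mul_00]; simp only [D, β, mk2_00, mk2_01, mk2_10, mk2_11]; ring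
        · rw [mul_01, mul_01]; simp only [D, β, mk2_00, mk2_01, mk2_10, mk2_11]; ring
        · rw [mul_10, mul_10]; simp only [D, β, mk2_00, mk2_01, mk2_10, mk2_11]; ring
        · rw [mul_11, mul_11]; simp only [D, β, mk2_00, mk2_01, mk2_10, mk2_11]; ring
      rw [← map_mul, this, map_mul, mul_inv_cancel_right]
    · have e : ∀ C : S, D * B = C * D → mk D * mk B * (mk D)⁻¹ = mk C := by
        intro C h
        rw [← map_mul, h, map_mul, mul_inv_cancel_right]
      have hss : s * s⁻¹ = 1 := mul_inv_cancel₀ hs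
      rcases hsy with h | h
      · left
        apply e
        have hz : B.1 1 0 = -2 * s * s := by
          rw [h00, h11] at hdB
          linear_combination (-B.1 1 0) * h + (- s * s) * hdB
        apply ext4
        · rw [mul_00, mul_00]; simp only [D, Ap, mk2_00, mk2_01, mk2_10, mk2_11]; rw [h00]; ring
        · rw [mul_01, mul_01]; simp only [D, Ap, mk2_00, mk2_01, mk2_10, mk2_11]
          linear_combination (s⁻¹) * h + (- s * B.1 0 1) * hss
        · rw [mul_10, mul_10]; simp only [D, Ap, mk2_00, mk2_01, mk2_10, mk2_11]; rw [hz]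
          have h11' : (11 : ZMod 11) = 0 := by decide
          linear_combination (-2 * s) * hss - s * h11'
        · rw [mul_11, mul_11]; simp only [D, Ap, mk2_00, mk2_01, mk2_10, mk2_11]; rw [h11]
          have h11' : (11 : ZMod 11) = 0 := by decide
          linear_combination -s⁻¹ * h11'
      · right
        apply e
        have hz : B.1 1 0 = 2 * s * s := by
          rw [h00, h11] at hdB
          linear_combination (B.1 1 0) * h + (s * s) * hdB
        apply ext4
        · rw [mul_00, mul_00]; simp only [D, Am, mk2_00, mk2_01, mk2_10, mk2_11]; rw [h00]; ring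
        · rw [mul_01, mul_01]; simp only [D, Am, mk2_00, mk2_01, mk2_10, mk2_11]
          have h11' : (11 : ZMod 11) = 0 := by decide
          linear_combination (s⁻¹) * h + (- s * B.1 0 1) * hss - s⁻¹ * h11'
        · rw [mul_10, mul_10]; simp only [D, Am, mk2_00, mk2_01, mk2_10, mk2_11]; rw [hz]
          linear_combination (2 * s) * hss
        · rw [mul_11, mul_11]; simp only [D, Am, mk2_00, mk2_01, mk2_10, mk2_11]; rw [h11]
          have h11' : (11 : ZMod 11) = 0 := by decide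
          linear_combination -s⁻¹ * h11'
  obtain ⟨h00, h01⟩ := hcase
  have hw : A.1 1 1 = -A.1 0 0 := by linear_combination ht
  rcases h00 with h00 | h00
  · exact key A h00 (by rw [hw, h00]) h01
  · have hneg : mk A = mk (mk2 (-A.1 0 0) (-A.1 0 1) (-A.1 1 0) (-A.1 1 1) (by linear_combination hd)) := by
      apply mk_neg_eq
      intro i j
      fin_cases i <;> fin_cases j <;> rfl
    rw [hneg]
    apply key
    · rw [mk2_00, h00, neg_neg]
    · rw [mk2_11, hw, h00, neg_neg]
    · rw [mk2_01]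
      exact neg_ne_zero.2 h01

end H47.PSL11
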