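import Mathlib
import Cfsg.Agent.Lib.H47.PSL11

/-!
`PSL₂(11)`: the subgroups isomorphic to `A₅`, part two.
-/

set_option autoImplicit false
set_option linter.unusedVariables false
set_option linter.unusedSimpArgs false

namespace H47.PSL11b

open H45.SL2 H47.PSL11

open Equiv

local instance : Fact (Nat.Prime 11) := ⟨by norm_num⟩

/-- `A₅` -/
abbrev A5 := alternatingGroup (Fin 5)

/-- the five-cycle -/
def b0 : A5 := ⟨(swap 0 1 * swap 1 2) * (swap 2 3 * swap 3 4), Equiv.Perm.mem_alternatingGroup.2 (by decide +kernel)⟩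

/-- the involution -/
def a0 : A5 := ⟨swap 2 3 * swap 0 1, Equiv.Perm.mem_alternatingGroup.2 (by decide +kernel)⟩

/-- the involution for the square -/
def a2 : A5 := ⟨swap 0 2 * swap 1 3, Equiv.Perm.mem_alternatingGroup.2 (by decide +kernel)⟩

theorem ext_iff' {x y : A5} : x = y ↔ ∀ i, x.1 i = y.1 i := by
  rw [Subtype.ext_iff, Equiv.ext_iff]

theorem b0_ne : b0 ≠ 1 := by rw [Ne, ext_iff']; decide +kernel
theorem b0_five : b0 ^ 5 = 1 := by rw [ext_iff']; decide +kernel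
theorem a0_ne : a0 ≠ 1 := by rw [Ne, ext_iff']; decide +kernel
theorem a0_sq : a0 ^ 2 = 1 := by rw [ext_iff']; decide +kernel
theorem a2_ne : a2 ≠ 1 := by rw [Ne, ext_iff']; decide +kernel
theorem a2_sq : a2 ^ 2 = 1 := by rw [ext_iff']; decide +kernel
theorem ab_ne : a0 * b0 ≠ 1 := by rw [Ne, ext_iff']; decide +kernel
theorem ab_cube : (a0 * b0) ^ 3 = 1 := by rw [ext_iff']; decide +kernel
theorem ab2_ne : a2 * b0 ^ 2 ≠ 1 := by rw [Ne, ext_iff']; decide +kernel
theorem ab2_cube : (a2 * b0 ^ 2) ^ 3 = 1 := by rw [ext_iff']; decide +kernel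

theorem card_A5 : Nat.card A5 = 60 := by
  rw [nat_card_alternatingGroup, Nat.card_eq_fintype_card, Fintype.card_fin]
  rfl

theorem eq_top_of {K : Subgroup A5} {a b : A5} (ha : a ∈ K) (hb : b ∈ K) (ha1 : a ≠ 1) (ha2 : a ^ 2 = 1)
    (hb1 : b ≠ 1) (hb5 : b ^ 5 = 1) (hab1 : a * b ≠ 1) (hab3 : (a * b) ^ 3 = 1) : K = ⊤ := by
  have h2 : 2 ∣ Nat.card K := by
    have : orderOf (⟨a, ha⟩ : K) = 2 := by
      rw [Subgroup.orderOf_mk]
      exact orderOf_eq_prime ha2 ha1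
    rw [← this]
    exact orderOf_dvd_natCard _
  have h5 : 5 ∣ Nat.card K := by
    have h : orderOf (⟨b, hb⟩ : K) = 5 := by
      rw [Subgroup.orderOf_mk]
      have : Fact (Nat.Prime 5) := ⟨by norm_num⟩
      exact orderOf_eq_prime hb5 hb1
    have h' := orderOf_dvd_natCard (⟨b, hb⟩ : K)
    rwa [h] at h'
  have h3 : 3 ∣ Nat.card K := by
    have : orderOf (⟨a * b, K.mul_mem ha hb⟩ : K) = 3 := by
      rw [Subgroup.orderOf_mk]
      have : Fact (Nat.Prime 3) := ⟨by norm_num⟩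
      exact orderOf_eq_prime hab3 hab1
    rw [← this]
    exact orderOf_dvd_natCard _
  have h := Subgroup.card_mul_index K
  rw [card_A5] at h
  have hK : 30 ∣ Nat.card K := by omega
  obtain ⟨c, hc⟩ := hK
  rw [hc] at h
  have hidx : K.index = 1 ∨ K.index = 2 := by
    have hc1 : c * K.index = 2 := by
      have : 30 * (c * K.index) = 30 * 2 := by rw [← mul_assoc]; exact h
      omega
    have : K.index ∣ 2 := ⟨c, by rw [mul_comm]; exact hc1.symm⟩
    exact (Nat.dvd_prime Nat.prime_two).1 this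
  rcases hidx with h1 | h1
  · exact Subgroup.index_eq_one.1 h1
  · have hn : K.Normal := Subgroup.normal_of_index_eq_two h1
    rcases hn.eq_bot_or_eq_top with h | h
    · exfalso
      rw [h] at ha
      exact ha1 (Subgroup.mem_bot.1 ha)
    · exact h

theorem closure_a0 : Subgroup.closure {a0, b0} = (⊤ : Subgroup A5) :=
  eq_top_of (Subgroup.subset_closure (Set.mem_insert _ _))
    (Subgroup.subset_closure (Set.mem_insert_of_mem _ rfl)) a0_ne a0_sq b0_ne b0_five ab_ne ab_cube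

theorem b0_sq_ne : b0 ^ 2 ≠ 1 := by rw [Ne, ext_iff']; decide +kernel
theorem b0_sq_five : (b0 ^ 2) ^ 5 = 1 := by rw [ext_iff']; decide +kernel

/-- generators for each five-element -/
theorem exists_gen {k : ℕ} (hk : k = 1 ∨ k = 2) : ∃ a : A5, a ≠ 1 ∧ a ^ 2 = 1 ∧ a * b0 ^ k ≠ 1 ∧
    (a * b0 ^ k) ^ 3 = 1 ∧ Subgroup.closure {a, b0 ^ k} = (⊤ : Subgroup A5) := by
  rcases hk with rfl | rfl
  · rw [pow_one]
    exact ⟨a0, a0_ne, a0_sq, ab_ne, ab_cube, closure_a0⟩
  · exact ⟨a2, a2_ne, a2_sq, ab2_ne, ab2_cube, eq_top_of (Subgroup.subset_closure (Set.mem_insert _ _))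
      (Subgroup.subset_closure (Set.mem_insert_of_mem _ rfl)) a2_ne a2_sq b0_sq_ne b0_sq_five ab2_ne ab2_cube⟩

/-- every subgroup `A₅` of `PSL₂(11)` is conjugate to one of the two standard ones. -/
theorem exists_conj (L : Subgroup G) (e : A5 ≃* L) : ∃ g : G, L.map (MulAut.conj g).toMonoidHom = Hp ∨
    L.map (MulAut.conj g).toMonoidHom = Hm := by
  set φ : A5 →* G := L.subtype.comp e.toMonoidHom with hφ
  have hφi : Function.Injective φ := by
    intro x y hxy
    exact e.injective (Subtype.ext hxy)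
  have hφ1 : ∀ x, φ x = 1 ↔ x = 1 := by
    intro x
    rw [← map_one φ]
    exact hφi.eq_iff
  have hr : L = (⊤ : Subgroup A5).map φ := by
    ext x
    constructor
    · intro hx
      refine ⟨e.symm ⟨x, hx⟩, Subgroup.mem_top _, ?_⟩
      simp [hφ]
    · rintro ⟨y, -, rfl⟩
      exact (e y).2
  obtain ⟨k, hk, x, hx⟩ := exists_conj_β (g := φ b0) (by rw [← map_pow, hφ1]; exact b0_five)
    (by rw [Ne, hφ1]; exact b0_ne)
  obtain ⟨a, ha1, ha2, hab1, hab3, hcl⟩ := exists_gen hk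
  set c : G →* G := (MulAut.conj x).toMonoidHom with hc
  have hc' : ∀ y, c y = x * y * x⁻¹ := fun y => rfl
  have hci : Function.Injective c := (MulAut.conj x).injective
  have hcb : c (φ (b0 ^ k)) = mk β := by
    rw [map_pow, hc', hx]
  have hc1 : ∀ y, c (φ y) = 1 ↔ y = 1 := by
    intro y
    exact (hci.eq_iff' (map_one c)).trans (hφ1 y)
  obtain ⟨y, hyb, hya⟩ := exists_torus (α := c (φ a)) (by rw [← map_pow, ← map_pow, hc1]; exact ha2)
    (by rw [Ne, hc1]; exact ha1) (by rw [← hcb, ← map_mul, ← map_mul, ← map_pow, ← map_pow, hc1]; exact hab3)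
    (by rw [← hcb, ← map_mul, ← map_mul, Ne, hc1]; exact hab1)
  refine ⟨y * x, ?_⟩
  have hmap : L.map (MulAut.conj (y * x)).toMonoidHom = Subgroup.closure {y * c (φ a) * y⁻¹, mk β} := by
    rw [hr, ← hcl, Subgroup.map_map, MonoidHom.map_closure, Set.image_pair]
    congr 2
    · show (y * x) * φ a * (y * x)⁻¹ = y * (x * φ a * x⁻¹) * y⁻¹
      group
    · congr 1
      show (y * x) * φ (b0 ^ k) * (y * x)⁻¹ = mk β
      rw [← hyb, ← hcb, hc']
      group
  rw [hmap]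
  rcases hya with h | h
  · left
    rw [h]; rfl
  · right
    rw [h]; rfl

/-! ### the explicit homomorphisms -/

/-- images -/
def avp : Fin 4 → S
  | 0 => 1
  | 1 => mk2 5 6 2 7 (by decide)
  | 2 => mk2 1 1 9 10 (by decide)
  | 3 => mk2 1 3 3 10 (by decide)

/-- images -/
def avm : Fin 4 → S
  | 0 => 1
  | 1 => mk2 5 5 9 7 (by decide)
  | 2 => mk2 1 10 2 10 (by decide)
  | 3 => mk2 1 8 8 10 (by decide)

theorem exists_hom (av : Fin 4 → S)
    (h2 : ∀ i j : Fin 4, i.val + 1 < j.val → ((av i * (av j)⁻¹) ^ 2).1 0 1 = 0 ∧ ((av i * (av j)⁻¹) ^ 2).1 1 0 = 0 ∧ ((av i * (av j)⁻¹) ^ 2).1 0 0 = ((av i * (av j)⁻¹) ^ 2).1 1 1)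
    (h3 : ∀ i j : Fin 4, i.val + 1 = j.val → ((av i * (av j)⁻¹) ^ 3).1 0 1 = 0 ∧ ((av i * (av j)⁻¹) ^ 3).1 1 0 = 0 ∧ ((av i * (av j)⁻¹) ^ 3).1 0 0 = ((av i * (av j)⁻¹) ^ 3).1 1 1)
    (hne : mk (av 2 * (av 0)⁻¹) ≠ 1) :
    ∃ φ : A5 →* G, Function.Injective φ ∧ φ a0 = mk (av 2 * (av 0)⁻¹) ∧
      φ b0 = mk ((av 0 * (av 1)⁻¹) * (av 2 * (av 3)⁻¹)) := by
  obtain ⟨φ, hφ⟩ := H47.AltHom.exists_alt_hom (n := 4) (fun i => mk (av i))
    (by
      intro i j hij
      rw [← map_inv, ← map_mul, ← map_pow, mk_eq_one_iff]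
      exact h2 i j hij)
    (by
      intro i j hij
      rw [← map_inv, ← map_mul, ← map_pow, mk_eq_one_iff]
      exact h3 i j hij)
  have ha : φ a0 = mk (av 2 * (av 0)⁻¹) := by
    have := hφ 2 0 a0.2
    rw [map_mul, map_inv]
    exact this
  have hb : φ b0 = mk ((av 0 * (av 1)⁻¹) * (av 2 * (av 3)⁻¹)) := by
    have e1 := hφ 0 1 (Equiv.Perm.mem_alternatingGroup.2 (by decide +kernel))
    have e2 := hφ 2 3 (Equiv.Perm.mem_alternatingGroup.2 (by decide +kernel))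
    rw [map_mul mk, map_mul mk, map_mul mk, map_inv mk, map_inv mk, ← e1, ← e2, ← map_mul]
    rfl
  refine ⟨φ, ?_, ha, hb⟩
  have hk : φ.ker.Normal := inferInstance
  have hs : IsSimpleGroup (alternatingGroup (Fin (4 + 1))) := alternatingGroup.isSimpleGroup (by simp)
  rcases hk.eq_bot_or_eq_top with h | h
  · exact (MonoidHom.ker_eq_bot_iff φ).1 h
  · exfalso
    have : a0 ∈ φ.ker := by rw [h]; exact Subgroup.mem_top _
    rw [MonoidHom.mem_ker, ha] at this
    exact hne this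

theorem exists_hom_p : ∃ φ : A5 →* G, Function.Injective φ ∧ φ a0 = mk Ap ∧ φ b0 = mk β := by
  obtain ⟨φ, h1, h2, h3⟩ := exists_hom avp (by decide +kernel) (by decide +kernel) (by rw [Ne, mk_eq_one_iff]; decide +kernel)
  refine ⟨φ, h1, ?_, ?_⟩
  · rw [h2]
    exact congrArg mk (ext4 (by decide +kernel) (by decide +kernel) (by decide +kernel) (by decide +kernel))
  · rw [h3]
    apply mk_neg_eq
    intro i j
    fin_cases i <;> fin_cases j <;> decide +kernel

theorem exists_hom_m : ∃ φ : A5 →* G, Function.Injective φ ∧ φ a0 = mk Am ∧ φ b0 = mk β := by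
  obtain ⟨φ, h1, h2, h3⟩ := exists_hom avm (by decide +kernel) (by decide +kernel) (by rw [Ne, mk_eq_one_iff]; decide +kernel)
  refine ⟨φ, h1, ?_, ?_⟩
  · rw [h2]
    exact congrArg mk (ext4 (by decide +kernel) (by decide +kernel) (by decide +kernel) (by decide +kernel))
  · rw [h3]
    apply mk_neg_eq
    intro i j
    fin_cases i <;> fin_cases j <;> decide +kernel

theorem card_G : Nat.card G = 660 := by
  have h := H6.SLCard.card_psl (F := ZMod 11) (n := 2) (by norm_num)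
  rw [Fin.prod_univ_two, ZMod.card] at h
  have e1 : Nat.gcd 2 (11 - 1) = 2 := by decide
  have e2 : (11 ^ 2 - 11 ^ ((0 : Fin 2) : ℕ)) * (11 ^ 2 - 11 ^ ((1 : Fin 2) : ℕ)) = 2 * ((11 - 1) * 660) := by decide
  rw [e1, e2] at h
  have h1 := Nat.eq_of_mul_eq_mul_left (by norm_num) h
  exact Nat.eq_of_mul_eq_mul_left (by norm_num) h1

theorem range_eq (φ : A5 →* G) {x : G} (ha : φ a0 = x) (hb : φ b0 = mk β) :
    φ.range = Subgroup.closure {x, mk β} := by
  rw [MonoidHom.range_eq_map, ← closure_a0, MonoidHom.map_closure, Set.image_pair, ha, hb]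

theorem five_class : ∀ x : A5, x ^ 5 = 1 → x ≠ 1 → ∃ c : A5, c * x * c⁻¹ = b0 ∨ c * x * c⁻¹ = b0 ^ 2 := by
  decide +kernel

theorem six_cond : ∀ x : A5, x ^ 6 = 1 → x ^ 2 = 1 ∨ x ^ 3 = 1 := by
  decide +kernel

end H47.PSL11b
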