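import Mathlib
import Cfsg.Agent.Lib.H47.PSL11b

/-!
`PSL₂(11)`: the subgroups isomorphic to `A₅`, part three: there are 22 of them, in two classes.
-/

set_option autoImplicit false
set_option linter.unusedVariables false

namespace H47.PSL11c

open H45.SL2 H47.PSL11 H47.PSL11b
open scoped Pointwise

local instance : Fact (Nat.Prime 11) := ⟨by norm_num⟩

theorem card_range (φ : A5 →* G) (hφ : Function.Injective φ) : Nat.card φ.range = 60 := by
  rw [← card_A5]
  exact (Nat.card_congr (MonoidHom.ofInjective hφ).toEquiv).symm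

theorem index_range (φ : A5 →* G) (hφ : Function.Injective φ) : φ.range.index = 11 := by
  have h := Subgroup.card_mul_index φ.range
  rw [card_range φ hφ, card_G] at h
  omega

theorem isSimple : IsSimpleGroup G := by
  apply Matrix.ProjectiveSpecialLinearGroup.rank_two_simple
  rw [Nat.card_eq_fintype_card, ZMod.card]
  norm_num

theorem six_order : (mk Ap * mk Am) ^ 6 = 1 ∧ (mk Ap * mk Am) ^ 2 ≠ 1 ∧ (mk Ap * mk Am) ^ 3 ≠ 1 := by
  rw [← map_mul, ← map_pow, ← map_pow, ← map_pow]
  refine ⟨?_, ?_, ?_⟩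
  · rw [mk_eq_one_iff]; decide +kernel
  · rw [Ne, mk_eq_one_iff]; decide +kernel
  · rw [Ne, mk_eq_one_iff]; decide +kernel

theorem β_sq_not_conj (g : G) : g * mk β ^ 2 * g⁻¹ ≠ mk β := by
  intro h
  obtain ⟨P, rfl⟩ := mk_surjective g
  rw [← map_pow, ← map_inv, ← map_mul, ← map_mul] at h
  have h2 : (QuotientGroup.mk (P * β ^ 2 * P⁻¹) : G) = QuotientGroup.mk β := h
  rw [H50.PSLBasic.mk_eq_mk_iff] at h2
  obtain ⟨c, hc⟩ := h2
  -- compare traces and determinants
  have htr : β.1.trace = c * (P * β ^ 2 * P⁻¹).1.trace := by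
    rw [hc, Matrix.trace_smul, smul_eq_mul]
  have htr2 : (P * β ^ 2 * P⁻¹).1.trace = (β ^ 2).1.trace := by
    rw [mul_val, Matrix.trace_mul_comm, ← mul_val, inv_mul_cancel_left]
  have hdet : (β.1).det = c ^ 2 * (P * β ^ 2 * P⁻¹).1.det := by
    rw [hc, Matrix.det_smul]
    rfl
  rw [β.2, (P * β ^ 2 * P⁻¹).2, mul_one] at hdet
  have e1 : β.1.trace = 7 := by decide +kernel
  have e2 : (β ^ 2).1.trace = 3 := by decide +kernel
  rw [htr2, e1, e2] at htr
  revert htr hdet
  clear * -
  revert c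
  decide

theorem not_conj (φ ψ : A5 →* G) (hφ : Function.Injective φ) (hψ : Function.Injective ψ)
    (ha : φ a0 = mk Ap) (hb : φ b0 = mk β) (ha' : ψ a0 = mk Am) (hb' : ψ b0 = mk β) (g : G) :
    φ.range.map (MulAut.conj g).toMonoidHom ≠ ψ.range := by
  intro h
  -- first: the two ranges are different
  have hne : φ.range ≠ ψ.range := by
    intro heq
    have h1 : mk Ap ∈ φ.range := ⟨a0, ha⟩
    have h2 : mk Am ∈ φ.range := by rw [heq]; exact ⟨a0, ha'⟩
    obtain ⟨σ, hσ⟩ := φ.range.mul_mem h1 h2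
    obtain ⟨h6, h2', h3'⟩ := six_order
    have e : ∀ k : ℕ, (mk Ap * mk Am) ^ k = 1 ↔ σ ^ k = 1 := by
      intro k
      rw [← hσ, ← map_pow, ← map_one φ]
      exact hφ.eq_iff
    rcases six_cond σ ((e 6).1 h6) with h | h
    · exact h2' ((e 2).2 h)
    · exact h3' ((e 3).2 h)
  have hβ : mk β ∈ φ.range.map (MulAut.conj g).toMonoidHom := by
    rw [h]; exact ⟨b0, hb'⟩
  obtain ⟨_, ⟨x, rfl⟩, hx⟩ := hβ
  have hx' : g * φ x * g⁻¹ = mk β := hx
  have hxφ : φ x = g⁻¹ * mk β * g := by rw [← hx']; group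
  have hx5 : x ^ 5 = 1 := by
    apply hφ
    rw [map_pow, map_one, hxφ]
    have : (g⁻¹ * mk β * g) ^ 5 = g⁻¹ * (mk β) ^ 5 * g := by
      have := conj_pow (a := g⁻¹) (b := mk β) (i := 5)
      rw [inv_inv] at this
      exact this
    rw [this, ← hb, ← map_pow, b0_five, map_one]
    group
  have hx1 : x ≠ 1 := by
    rintro rfl
    rw [map_one] at hx'
    apply mk_β_ne
    rw [← hx']; group
  obtain ⟨c, hc⟩ := five_class x hx5 hx1
  rcases hc with hc | hc
  · have hxc : x = c⁻¹ * b0 * c := by rw [← hc]; group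
    have h1 : (g * φ c⁻¹) * mk β * (g * φ c⁻¹)⁻¹ = mk β := by
      rw [hxc, map_mul, map_mul, hb] at hx'
      conv_rhs => rw [← hx']
      rw [map_inv]
      group
    obtain ⟨k, hk⟩ := centralizer_β h1
    have hmem : g ∈ φ.range := by
      have : g = mk β ^ k * φ c := by rw [← hk, mul_assoc, ← map_mul, inv_mul_cancel, map_one, mul_one]
      rw [this]
      exact φ.range.mul_mem (φ.range.pow_mem ⟨b0, hb⟩ k) ⟨c, rfl⟩
    apply hne
    rw [← h]
    ext y
    rw [Subgroup.mem_map]
    constructor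
    · intro hy
      refine ⟨g⁻¹ * y * g, φ.range.mul_mem (φ.range.mul_mem (φ.range.inv_mem hmem) hy) hmem, ?_⟩
      show g * (g⁻¹ * y * g) * g⁻¹ = y
      group
    · rintro ⟨z, hz, rfl⟩
      exact φ.range.mul_mem (φ.range.mul_mem hmem hz) (φ.range.inv_mem hmem)
  · have hxc : x = c⁻¹ * b0 ^ 2 * c := by rw [← hc]; group
    have h1 : (g * φ c⁻¹) * mk β ^ 2 * (g * φ c⁻¹)⁻¹ = mk β := by
      rw [hxc, map_mul, map_mul, map_pow, hb] at hx'
      conv_rhs => rw [← hx']
      rw [map_inv]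
      group
    exact β_sq_not_conj _ h1

/-- the number of conjugates of a subgroup of prime index in a simple group -/
theorem ncard_conj {Γ : Type*} [Group Γ] [Finite Γ] [IsSimpleGroup Γ] (H : Subgroup Γ) {p : ℕ} (hp : p.Prime)
    (hH : H.index = p) (hbot : H ≠ ⊥) : {K : Subgroup Γ | ∃ g : Γ, MulAut.conj g • H = K}.ncard = p := by
  let act : MulAction Γ (Subgroup Γ) := MulAction.compHom (Subgroup Γ) (MulAut.conj : Γ →* MulAut Γ)
  have hs : ∀ (g : Γ) (K : Subgroup Γ), g • K = MulAut.conj g • K := fun g K => rfl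
  have horb : {K : Subgroup Γ | ∃ g : Γ, MulAut.conj g • H = K} = MulAction.orbit Γ H := rfl
  rw [horb, ← MulAction.index_stabilizer]
  have hle : H ≤ MulAction.stabilizer Γ H := by
    intro h hh
    rw [MulAction.mem_stabilizer_iff, hs]
    exact Subgroup.conj_smul_eq_self_of_mem hh
  have hdvd : (MulAction.stabilizer Γ H).index ∣ p := by
    rw [← hH]
    exact Subgroup.index_dvd_of_le hle
  rcases (Nat.dvd_prime hp).1 hdvd with h | h
  · exfalso
    rw [Subgroup.index_eq_one] at h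
    have hn : H.Normal := by
      constructor
      intro n hn g
      have hg : g ∈ MulAction.stabilizer Γ H := by rw [h]; exact Subgroup.mem_top _
      rw [MulAction.mem_stabilizer_iff, hs] at hg
      rw [← hg]
      exact ⟨n, hn, rfl⟩
    rcases hn.eq_bot_or_eq_top with h1 | h1
    · exact hbot h1
    · rw [h1, Subgroup.index_top] at hH
      exact hp.one_lt.ne hH
  · exact h

end H47.PSL11c
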