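import Mathlib
import Cfsg.Agent.Lib.H14.PrimeDegree2

/-!
A nonsolvable simple group acts 2-transitively on the cosets of a subgroup of prime index.
-/

set_option autoImplicit false

namespace H47.PrimeIndexTwoTrans

theorem two_trans {G : Type*} [Group G] [Finite G] [IsSimpleGroup G] (hns : ¬ Group.IsSolvable G)
    (H : Subgroup G) {p : ℕ} (hp : p.Prime) (hH : H.index = p) :
    MulAction.IsMultiplyPretransitive G (G ⧸ H) 2 := by
  classical
  have hpf : Fact p.Prime := ⟨hp⟩
  let hfin : Fintype (G ⧸ H) := Fintype.ofFinite _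
  have hcard : Fintype.card (G ⧸ H) = p := by
    rw [← Nat.card_eq_fintype_card]; exact hH
  let f : G →* Equiv.Perm (G ⧸ H) := MulAction.toPermHom G (G ⧸ H)
  have hf : ∀ g x, f g x = g • x := fun g x => rfl
  have htr : MulAction.IsPretransitive f.range (G ⧸ H) := by
    constructor
    intro x y
    obtain ⟨g, hg⟩ := MulAction.exists_smul_eq G x y
    exact ⟨⟨f g, g, rfl⟩, hg⟩
  have hinj : Function.Injective f := by
    rw [← MonoidHom.ker_eq_bot_iff]
    have hk : f.ker.Normal := inferInstance
    rcases hk.eq_bot_or_eq_top with h | h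
    · exact h
    · exfalso
      have h1 : ∀ x y : G ⧸ H, x = y := by
        intro x y
        obtain ⟨g, hg⟩ := MulAction.exists_smul_eq G x y
        have : g ∈ f.ker := by rw [h]; exact Subgroup.mem_top _
        rw [MonoidHom.mem_ker] at this
        have h2 : f g x = x := by rw [this]; rfl
        rw [← hg]; exact h2.symm
      have h3 : Fintype.card (G ⧸ H) ≤ 1 := Fintype.card_le_one_iff.2 h1
      rw [hcard] at h3
      exact absurd hp.one_lt (by omega)
  obtain ⟨c, hc, -, e, he⟩ := H14.PrimeDegree.exists_coord hcard f.range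
  rcases H14.PrimeDegree2.affine_or_two_transitive hcard f.range hc e he with h | h
  · exfalso
    have h1 : Group.IsSolvable f.range := H14.PrimeDegree.isSolvable_of_affine f.range e h
    apply hns
    exact Group.isSolvable_of_isSolvable_injective (f := f.rangeRestrict) (by
      intro x y hxy
      exact hinj (congrArg Subtype.val hxy))
  · rw [MulAction.is_two_pretransitive_iff] at h ⊢
    intro a b c d hab hcd
    obtain ⟨⟨_, g, rfl⟩, h1, h2⟩ := h hab hcd
    exact ⟨g, h1, h2⟩

end H47.PrimeIndexTwoTrans
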