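import Mathlib

/-! The centralizer of a nilpotent endomorphism of rank one. -/

set_option autoImplicit false
set_option linter.unusedVariables false

namespace H47.RankOneCent

open Module

variable {F : Type*} [Field F]

/-- model space -/
abbrev W (F : Type*) (m : ℕ) : Type _ := F × (Fin m → F) × F

/-- model nilpotent -/
def N0 (F : Type*) [Field F] (m : ℕ) : W F m →ₗ[F] W F m where
  toFun w := (w.2.2, 0, 0)
  map_add' x y := by simp
  map_smul' c x := by simp

theorem N0_apply {m : ℕ} (w : W F m) : N0 F m w = (w.2.2, 0, 0) := rfl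

/-- normal form of nilpotents of rank one -/
theorem exists_model {V : Type*} [AddCommGroup V] [Module F V] [FiniteDimensional F V] (m : ℕ) (hm : finrank F V = m + 2)
    (N : V →ₗ[F] V) (hr : finrank F (LinearMap.range N) = 1) (h2 : ∀ x, N (N x) = 0) :
    ∃ e : V ≃ₗ[F] W F m, ∀ x, e (N x) = N0 F m (e x) := by
  obtain ⟨w, hw⟩ : ∃ w, N w ≠ 0 := by
    by_contra hcon
    push Not at hcon
    have : LinearMap.range N = ⊥ := by
      rw [LinearMap.range_eq_bot]
      exact LinearMap.ext hcon
    rw [this, finrank_bot] at hr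
    exact zero_ne_one hr
  set v := N w with hv
  have hrange : LinearMap.range N = Submodule.span F {v} := by
    symm
    apply Submodule.eq_of_le_of_finrank_eq
    · rw [Submodule.span_singleton_le_iff_mem]
      exact ⟨w, rfl⟩
    · rw [hr, finrank_span_singleton hw]
  have hker : finrank F (LinearMap.ker N) = m + 1 := by
    have := LinearMap.finrank_range_add_finrank_ker N
    omega
  have hspan_le : Submodule.span F {v} ≤ LinearMap.ker N := by
    rw [Submodule.span_singleton_le_iff_mem, LinearMap.mem_ker]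
    exact h2 w
  obtain ⟨C, hC⟩ := Submodule.exists_isCompl (Submodule.span F {v})
  set U := C ⊓ LinearMap.ker N with hU
  have hsup : Submodule.span F {v} ⊔ U = LinearMap.ker N := by
    rw [hU, ← sup_inf_assoc_of_le C hspan_le, hC.sup_eq_top, top_inf_eq]
  have hinf : Submodule.span F {v} ⊓ U = ⊥ := by
    rw [hU, ← inf_assoc, hC.inf_eq_bot, bot_inf_eq]
  have hUdim : finrank F U = m := by
    have := Submodule.finrank_sup_add_finrank_inf_eq (Submodule.span F {v}) U
    rw [hsup, hinf, finrank_bot, finrank_span_singleton hw, hker] at this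
    omega
  let eU : (Fin m → F) ≃ₗ[F] U := LinearEquiv.ofFinrankEq _ _ (by rw [hUdim]; simp)
  let Φ : W F m →ₗ[F] V :=
    { toFun := fun x => x.1 • v + (eU x.2.1 : V) + x.2.2 • w
      map_add' := fun x y => by
        simp only [Prod.fst_add, Prod.snd_add, map_add, add_smul, Submodule.coe_add]
        abel
      map_smul' := fun c x => by
        simp only [Prod.smul_fst, Prod.smul_snd, map_smul, smul_eq_mul, mul_smul, RingHom.id_apply, smul_add, Submodule.coe_smul] }
  have hΦ : ∀ x : W F m, Φ x = x.1 • v + (eU x.2.1 : V) + x.2.2 • w := fun x => rfl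
  have hUker : ∀ u : U, N u = 0 := fun u => (Submodule.mem_inf.mp u.2).2
  have hNΦ : ∀ x : W F m, N (Φ x) = Φ (N0 F m x) := by
    intro x
    rw [hΦ, hΦ, N0_apply]
    simp only [map_add, map_smul, hUker, map_zero, Submodule.coe_zero, add_zero, zero_smul]
    rw [hv, h2, smul_zero, zero_add]
  have hinj : Function.Injective Φ := by
    rw [injective_iff_map_eq_zero]
    rintro ⟨a, x, b⟩ h
    have h1 : N (Φ (a, x, b)) = 0 := by rw [h, map_zero]
    rw [hNΦ, hΦ, N0_apply] at h1
    simp only [map_zero, Submodule.coe_zero, add_zero, zero_smul, smul_eq_zero, hw, or_false] at h1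
    have hb : b = 0 := h1
    subst hb
    rw [hΦ] at h
    simp only [zero_smul, add_zero] at h
    have h3 : (eU x : V) ∈ Submodule.span F {v} ⊓ U := by
      refine ⟨?_, (eU x).2⟩
      have : (eU x : V) = -(a • v) := eq_neg_of_add_eq_zero_right h
      rw [this]
      exact Submodule.neg_mem _ (Submodule.smul_mem _ _ (Submodule.mem_span_singleton_self v))
    rw [hinf, Submodule.mem_bot] at h3
    have hx : x = 0 := by
      have : eU x = 0 := Subtype.ext h3
      exact (LinearEquiv.map_eq_zero_iff eU).mp this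
    rw [h3, add_zero, smul_eq_zero] at h
    rcases h with h | h
    · rw [h, hx]; rfl
    · exact absurd h hw
  have hdim : finrank F (W F m) = finrank F V := by
    rw [hm]
    simp
    ring
  let e := LinearEquiv.ofInjectiveOfFinrankEq Φ hinj hdim
  refine ⟨e.symm, fun x => ?_⟩
  rw [LinearEquiv.symm_apply_eq]
  have h1 : ∀ y, e y = Φ y := fun y => rfl
  rw [h1, ← hNΦ]
  congr 1
  exact (e.apply_symm_apply x).symm

/-- data of an element of the centralizer -/
abbrev Dat (F : Type*) [Field F] (m : ℕ) : Type _ :=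
  Fˣ × ((Fin m → F) ≃ₗ[F] (Fin m → F)) × ((Fin m → F) →ₗ[F] F) × F × (Fin m → F)

/-- the element of the centralizer with given data -/
def elt {m : ℕ} (d : Dat F m) : W F m ≃ₗ[F] W F m where
  toFun x := ((d.1 : F) * x.1 + d.2.2.1 x.2.1 + d.2.2.2.1 * x.2.2, d.2.1 x.2.1 + x.2.2 • d.2.2.2.2, (d.1 : F) * x.2.2)
  map_add' x y := by
    simp only [Prod.fst_add, Prod.snd_add, map_add, add_smul]
    refine Prod.ext ?_ (Prod.ext ?_ ?_)
    · simp only [Prod.fst_add]; ring
    · simp only [Prod.snd_add, Prod.fst_add]; abel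
    · simp only [Prod.snd_add]; ring
  map_smul' c x := by
    simp only [Prod.smul_fst, Prod.smul_snd, map_smul, smul_eq_mul, RingHom.id_apply]
    refine Prod.ext ?_ (Prod.ext ?_ ?_)
    · simp only [Prod.smul_fst, smul_eq_mul]; ring
    · simp only [Prod.smul_snd, Prod.smul_fst, smul_add, mul_smul]
    · simp only [Prod.smul_snd, smul_eq_mul]; ring
  invFun y :=
    let b : F := ((d.1⁻¹ : Fˣ) : F) * y.2.2
    let x := d.2.1.symm (y.2.1 - b • d.2.2.2.2)
    (((d.1⁻¹ : Fˣ) : F) * (y.1 - d.2.2.1 x - d.2.2.2.1 * b), x, b)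
  left_inv x := by
    simp only [Units.inv_mul_cancel_left, add_sub_cancel_right, LinearEquiv.symm_apply_apply]
    refine Prod.ext ?_ rfl
    simp only
    rw [show (d.1 : F) * x.1 + d.2.2.1 x.2.1 + d.2.2.2.1 * x.2.2 - d.2.2.1 x.2.1 - d.2.2.2.1 * x.2.2 = (d.1 : F) * x.1 by ring]
    rw [Units.inv_mul_cancel_left]
  right_inv y := by
    simp only [Units.mul_inv_cancel_left, LinearEquiv.apply_symm_apply, sub_add_cancel]
    refine Prod.ext ?_ rfl
    simp only
    ring

theorem elt_apply {m : ℕ} (d : Dat F m) (x : W F m) :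
    elt d x = ((d.1 : F) * x.1 + d.2.2.1 x.2.1 + d.2.2.2.1 * x.2.2, d.2.1 x.2.1 + x.2.2 • d.2.2.2.2, (d.1 : F) * x.2.2) := rfl

theorem elt_comm {m : ℕ} (d : Dat F m) (x : W F m) : elt d (N0 F m x) = N0 F m (elt d x) := by
  rw [elt_apply, N0_apply, N0_apply, elt_apply]
  simp

theorem elt_injective {m : ℕ} : Function.Injective (elt : Dat F m → (W F m ≃ₗ[F] W F m)) := by
  rintro ⟨a, D, r, s, c⟩ ⟨a', D', r', s', c'⟩ h
  have h1 : ∀ x, elt (a, D, r, s, c) x = elt (a', D', r', s', c') x := fun x => LinearEquiv.congr_fun h x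
  simp only [elt_apply] at h1
  have e1 := h1 (0, 0, 1)
  simp only [mul_zero, map_zero, zero_add, mul_one, one_smul, Prod.mk.injEq] at e1
  obtain ⟨rfl, rfl, e1⟩ := e1
  have ha : a = a' := Units.ext e1
  subst ha
  have hr : r = r' := by
    refine LinearMap.ext fun x => ?_
    have := h1 (0, x, 0)
    simp only [mul_zero, add_zero, zero_smul, zero_add, Prod.mk.injEq] at this
    exact this.1
  have hD : D = D' := by
    ext1 x
    have := h1 (0, x, 0)
    simp only [mul_zero, add_zero, zero_smul, zero_add, Prod.mk.injEq] at this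
    exact this.2.1
  rw [hr, hD]

theorem elt_surjective {m : ℕ} (g : W F m ≃ₗ[F] W F m) (hg : ∀ x, g (N0 F m x) = N0 F m (g x)) : ∃ d : Dat F m, elt d = g := by
  -- the scalar
  have h1 : g (1, 0, 0) = ((g (0, 0, 1)).2.2, 0, 0) := by
    have := hg (0, 0, 1)
    rw [N0_apply, N0_apply] at this
    exact this
  have hl : (g (0, 0, 1)).2.2 ≠ 0 := by
    intro h0
    rw [h0] at h1
    have : g (1, 0, 0) = g 0 := by rw [h1, map_zero]; rfl
    have := g.injective this
    have := congrArg Prod.fst this
    exact one_ne_zero this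
  have hx : ∀ x : Fin m → F, (g (0, x, 0)).2.2 = 0 := by
    intro x
    have := hg (0, x, 0)
    rw [N0_apply, N0_apply] at this
    have h3 : g ((0 : F), (0 : Fin m → F), (0 : F)) = 0 := map_zero g
    simp only at this
    rw [h3] at this
    exact (congrArg Prod.fst this).symm
  let D0 : (Fin m → F) →ₗ[F] (Fin m → F) :=
    { toFun := fun x => (g (0, x, 0)).2.1
      map_add' := fun x y => by
        have : ((0 : F), x + y, (0 : F)) = (0, x, 0) + (0, y, 0) := by simp
        rw [this, map_add]; rfl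
      map_smul' := fun c x => by
        have : ((0 : F), c • x, (0 : F)) = c • (0, x, 0) := by simp
        rw [this, map_smul]; rfl }
  let r : (Fin m → F) →ₗ[F] F :=
    { toFun := fun x => (g (0, x, 0)).1
      map_add' := fun x y => by
        have : ((0 : F), x + y, (0 : F)) = (0, x, 0) + (0, y, 0) := by simp
        rw [this, map_add]; rfl
      map_smul' := fun c x => by
        have : ((0 : F), c • x, (0 : F)) = c • (0, x, 0) := by simp
        rw [this, map_smul]; rfl }
  have hgx : ∀ x, g (0, x, 0) = (r x, D0 x, 0) := fun x => Prod.ext rfl (Prod.ext rfl (hx x))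
  have hsplit : ∀ x : W F m, g x = x.1 • g (1, 0, 0) + g (0, x.2.1, 0) + x.2.2 • g (0, 0, 1) := by
    intro x
    rw [← map_smul, ← map_smul, ← map_add, ← map_add]
    congr 1
    simp
  have hD0 : Function.Injective D0 := by
    rw [injective_iff_map_eq_zero]
    intro x hx0
    have h4 : g (0, x, 0) = g ((g (0, 0, 1)).2.2⁻¹ * r x, 0, 0) := by
      rw [hsplit (((g (0, 0, 1)).2.2⁻¹ * r x, 0, 0) : W F m), hgx, hx0, h1]
      simp only [zero_smul, add_zero]
      have h3 : g ((0 : F), (0 : Fin m → F), (0 : F)) = 0 := map_zero g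
      rw [h3, add_zero]
      simp only [Prod.smul_mk, smul_eq_mul, smul_zero]
      rw [mul_right_comm, inv_mul_cancel₀ hl, one_mul, mul_zero]
    have h5 := g.injective h4
    exact congrArg (fun y : W F m => y.2.1) h5
  let D := LinearEquiv.ofInjectiveEndo D0 hD0
  refine ⟨(Units.mk0 _ hl, D, r, (g (0, 0, 1)).1, (g (0, 0, 1)).2.1), ?_⟩
  ext1 x
  rw [hsplit x, elt_apply, hgx, h1]
  refine Prod.ext ?_ (Prod.ext ?_ ?_)
  · simp only [Units.val_mk0, Prod.fst_add, Prod.smul_fst, smul_eq_mul]
    ring
  · simp only [Prod.snd_add, Prod.fst_add, Prod.smul_fst, Prod.smul_snd, smul_zero, zero_add]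
    rfl
  · simp only [Units.val_mk0, Prod.snd_add, Prod.smul_snd, smul_eq_mul]
    ring

theorem card_model [Fintype F] (m : ℕ) :
    Nat.card {g : W F m ≃ₗ[F] W F m // ∀ x, g (N0 F m x) = N0 F m (g x)} =
      (Fintype.card F - 1) * (Nat.card ((Fin m → F) ≃ₗ[F] (Fin m → F)) * ((Fintype.card F) ^ m * (Fintype.card F * (Fintype.card F) ^ m))) := by
  classical
  have e : Dat F m ≃ {g : W F m ≃ₗ[F] W F m // ∀ x, g (N0 F m x) = N0 F m (g x)} :=
    Equiv.ofBijective (fun d => ⟨elt d, elt_comm d⟩)
      ⟨fun d d' h => elt_injective (congrArg Subtype.val h), fun g => by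
        obtain ⟨d, hd⟩ := elt_surjective g.1 g.2
        exact ⟨d, Subtype.ext hd⟩⟩
  rw [← Nat.card_congr e, Nat.card_prod, Nat.card_prod, Nat.card_prod, Nat.card_prod]
  have h1 : Nat.card Fˣ = Fintype.card F - 1 := by rw [Nat.card_eq_fintype_card, Fintype.card_units]
  have h2 : Nat.card F = Fintype.card F := Nat.card_eq_fintype_card
  have h3 : Nat.card (Fin m → F) = Fintype.card F ^ m := by rw [Nat.card_eq_fintype_card]; simp
  have h4 : Nat.card ((Fin m → F) →ₗ[F] F) = Fintype.card F ^ m := by
    have := Module.natCard_eq_pow_finrank (K := F) (V := (Fin m → F) →ₗ[F] F)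
    rw [this, h2, Module.finrank_linearMap]
    simp
  rw [h1, h2, h3, h4]

end H47.RankOneCent
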