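import Cfsg.Agent.Lib.H47.WEnumF4

/-!
Enumeration of the twisted Weyl group of type F4.
-/

set_option autoImplicit false
set_option linter.unusedVariables false
set_option maxRecDepth 100000
set_option maxHeartbeats 2000000

namespace H47.ReeW

open H22.RGD H22.Coord H47.Alcove H47.HomoCert H22.Poincare H47.WEnum H22.PoinF4 H47.WEnumF4

/-- the twist on coordinates -/
def Tc (c : List ℤ) : List ℤ := [2 * c.getD 3 0, 2 * c.getD 2 0, c.getD 1 0, c.getD 0 0]

/-- the twisted element on coordinates -/
def nv (M : List (List ℤ)) (c : List ℤ) : List ℤ := mc M (Tc c)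

/-- Horner evaluation -/
def hv (M : List (List ℤ)) : List ℤ → List ℤ → List ℤ
  | [], c => c
  | a :: cs, c => List.zipWith (fun u v => a * u + v) c (hv M cs (nv M c))

/-- annihilation -/
def kill (M : List (List ℤ)) (cs : List ℤ) : Bool :=
  (List.range 4).all fun j => hv M cs (ue 4 j) == [0, 0, 0, 0]

/-- the check -/
def chkR (M : List (List ℤ)) : Bool :=
  detL 4 M == 1 || (kill M [-4, 0, 0, 0] || (kill M [-4, 4, 0, -2] || kill M [-4, -4, 0, 2]))

theorem goR : go rows reps (st rows 4 []) chkR = true := by decide +kernel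

end H47.ReeW
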