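import Cfsg.Agent.Lib.H47.ReeW
import Cfsg.Agent.Lib.H44.F4Ideal2

/-!
Centralisers of involutions in the large Ree groups: prime divisors.
-/

set_option autoImplicit false
set_option linter.unusedVariables false
set_option linter.unusedSectionVars false
set_option maxRecDepth 10000

namespace H47.ReeMain

open H22.RGD H22.Coord H22.RCCheck H22.RCComb H22.ChevTri H22.ChevRel H22.ChevSys H22.ChevMain
open H22.ChevStd H22.ChevSolv H22.ChevUni H47.ChevSub H47.Alcove H47.LangCent H47.TorAll H47.SemiTor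
open H47.FixPt H22.ChevTorus H47.HomoTor H47.JorTor H47.UniFlag H22.LangChev H47.HomoCert H47.WEnum
open H47.MixEx H47.MixUp H47.ReeSig H47.ReeW
open Cfsg.Lie (ChevalleyDatum)
open scoped MatrixGroups Matrix

local notation "F4" => Cfsg.Lie.chevF4
local notation "X4" => H22.PoinF4.rcxF4

/-- a unipotent element centralising an element of the torus on which no root vanishes is trivial -/
theorem unip_one {D : ChevalleyDatum} {K : Type*} [Field K] [IsAlgClosed K] (R : Rel D K) {X : RCX D}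
    (p : ℕ) [Fact p.Prime] [CharP K p] (hK : LocFin K p) (Z : Lex X.rc) {a : GL D.Idx K} (ha : a ∈ Hs R)
    (hT : Triv R X a) {ζ : Kˣ} {x : Fin D.rank → ℤ}
    (hx : ∀ s : Fin D.nroots, ∀ t : K, a * xg R s t * a⁻¹ =
        xg R s (((ζ ^ (ev (coord X) x s) : Kˣ) : K) * t))
    (hno : ∀ b : Fin D.nroots, ¬ (orderOf ζ : ℤ) ∣ ev (coord X) x b)
    {u : GL D.Idx K} (hu : u ∈ D.group K) (hau : a * u = u * a) {k : ℕ} (huk : u ^ p ^ k = 1) : u = 1 := by
  obtain ⟨c, hc, hac, hcU⟩ := exists_unip R p hK ha hT hu hau huk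
  have hcomm : a * (c⁻¹ * u * c) = c⁻¹ * u * c * a := by
    have h1 : a * c⁻¹ = c⁻¹ * a := by
      rw [eq_inv_mul_iff_mul_eq, ← mul_assoc, ← hac, mul_assoc, mul_inv_cancel, mul_one]
    calc a * (c⁻¹ * u * c) = a * c⁻¹ * u * c := by simp only [mul_assoc]
      _ = c⁻¹ * (a * u) * c := by rw [h1]; simp only [mul_assoc]
      _ = c⁻¹ * u * (a * c) := by rw [hau]; simp only [mul_assoc]
      _ = _ := by rw [hac]; simp only [mul_assoc]
  obtain ⟨t, ht, hPC⟩ := cent_U R Z ha hcU hcomm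
  have hn : X.rc.half + X.rc.half = D.nroots := by have := X.rc.nroots_eq; omega
  have h1 : pr R t X.rc.half X.rc.half = 1 := by
    apply SpecF4.pr_eq_one
    intro r h1 h2
    rcases hPC r h1 (by omega) with h | h
    · exact h
    · exfalso
      have h3 := hx ⟨r, by omega⟩ 1
      rw [h.2, mul_inv_cancel_right, mul_one] at h3
      have h4 := xg_inj R X.rc (show r < D.nroots by omega) h3
      exact hno ⟨r, by omega⟩ (orderOf_dvd_iff_zpow_eq_one.2 (Units.ext (by rw [← h4, Units.val_one])))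
  rw [h1] at ht
  have : u = c * (c⁻¹ * u * c) * c⁻¹ := by simp [mul_assoc]
  rw [this, ht]; simp

section

variable {K : Type*} [Field K] [Fintype K] {m : ℕ} (hK : Fintype.card K = 2 ^ (2 * m + 1))

include hK in
/-- **Primes dividing `q² - q + 1`.** -/
theorem main {a b : GL (F4).Idx K} (ha : a ∈ Cfsg.Lie.twistedF4 K (2 ^ m))
    (hb : b ∈ Cfsg.Lie.twistedF4 K (2 ^ m)) (ha2 : a ^ 2 = 1) {s : ℕ} (hs : s.Prime) (hs5 : 5 ≤ s)
    (hbs : orderOf b = s) (hab : a * b = b * a)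
    (hsq : (s : ℤ) ∣ ((2 ^ (2 * m + 1) : ℕ) : ℤ) ^ 2 - (2 ^ (2 * m + 1) : ℕ) + 1) : a = 1 := by
  have h2p : Fact (Nat.Prime 2) := ⟨Nat.prime_two⟩
  have hch := SpecF4.charp hK
  have hchL : CharP (AlgebraicClosure K) 2 := charP_of_injective_algebraMap
    (algebraMap K (AlgebraicClosure K)).injective 2
  have RF := H22.ChevAll.rel Cfsg.Lie.chevF4 (by simp) K
  have R := H22.ChevAll.rel Cfsg.Lie.chevF4 (by simp) (AlgebraicClosure K)
  -- the field endomorphisms
  let θ : K →+* K := iterateFrobenius K 2 m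
  let ψ : K →+* K := iterateFrobenius K 2 (m + 1)
  have hθt : ∀ t, θ t = t ^ 2 ^ m := fun t => iterateFrobenius_def 2 m t
  have hψt : ∀ t, ψ t = t ^ 2 ^ (m + 1) := fun t => iterateFrobenius_def 2 (m + 1) t
  have hθ : Function.Surjective θ := Finite.surjective_of_injective (RingHom.injective _)
  have hψ : Function.Surjective ψ := Finite.surjective_of_injective (RingHom.injective _)
  have h2 : ∀ t, ψ t = θ t ^ 2 := by
    intro t; rw [hψt, hθt, ← pow_mul, pow_succ]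
  let θ' : AlgebraicClosure K →+* AlgebraicClosure K := iterateFrobenius (AlgebraicClosure K) 2 m
  let ψ' : AlgebraicClosure K →+* AlgebraicClosure K := iterateFrobenius (AlgebraicClosure K) 2 (m + 1)
  have hθt' : ∀ t, θ' t = t ^ 2 ^ m := fun t => iterateFrobenius_def 2 m t
  have hψt' : ∀ t, ψ' t = t ^ 2 ^ (m + 1) := fun t => iterateFrobenius_def 2 (m + 1) t
  have hsurj : ∀ (k : ℕ) (t : AlgebraicClosure K), ∃ u, u ^ 2 ^ k = t := fun k t =>
    IsAlgClosed.exists_pow_nat_eq t (pow_pos two_pos k)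
  have hθ' : Function.Surjective θ' := fun t => by
    obtain ⟨u, hu⟩ := hsurj m t
    exact ⟨u, by rw [hθt', hu]⟩
  have hψ' : Function.Surjective ψ' := fun t => by
    obtain ⟨u, hu⟩ := hsurj (m + 1) t
    exact ⟨u, by rw [hψt', hu]⟩
  have h2' : ∀ t, ψ' t = θ' t ^ 2 := by
    intro t; rw [hψt', hθt', ← pow_mul, pow_succ]
  have hc : ∀ t, algebraMap K (AlgebraicClosure K) (θ t) = θ' (algebraMap K (AlgebraicClosure K) t) := by
    intro t; rw [hθt, hθt', map_pow]
  -- the elements in the group over the finite field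
  obtain ⟨a1, ha1, _⟩ := fixed hK RF θ ψ hθ hψ h2 hθt ha
  obtain ⟨b1, hb1, hb1f⟩ := fixed hK RF θ ψ hθ hψ h2 hθt hb
  have hb1o : orderOf b1 = s := by
    rw [← hbs, ← hb1]
    exact (orderOf_injective (Subgroup.subtype _) Subtype.val_injective b1).symm
  -- the elements over the algebraic closure
  set ι := H22.ChevField.fieldHom F4 (algebraMap K (AlgebraicClosure K)) with hι
  have hBf : sgm R θ' ψ' hθ' hψ' h2' (ι b1) = ι b1 := by
    rw [hι, compat RF θ ψ hθ hψ h2 R θ' ψ' hθ' hψ' h2' hc, hb1f]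
  obtain ⟨h1, h3, h4⟩ := asc 2 RF R hK b1
  rw [hb1o] at h4
  have hLF : LocFin (AlgebraicClosure K) 2 := locFin_of_isAlgebraic (F := K) (K := AlgebraicClosure K) (p := 2)
  have hs2 : ¬ 2 ∣ s := by rw [Nat.prime_dvd_prime_iff_eq Nat.prime_two hs]; omega
  obtain ⟨y, hy, hyH, ζ, x, hζ0, hζ, hx, hprim, _⟩ := exists_fun R 2 hLF H22.ChevLex.lexF4 (f := 3)
    Nat.prime_three (fun a ha N hN haN => SpecF4.conn R ha (isOfFinOrder_iff_pow_eq_one.2
      ⟨N, Nat.pos_of_ne_zero (by rintro rfl; exact hN (dvd_zero _)), haN⟩)) (2 * m + 1) hs2 h1 h3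
    (by rw [← h4, pow_orderOf_eq_one])
  rw [h4] at hζ
  obtain ⟨w, hw, hrel⟩ := sig_rel R θ' ψ' hθ' hψ' h2' hθt' (g := ι b1) (y := ⟨y, hy⟩) hBf (ζ := ζ) (x := x)
    hyH hx
  rw [hζ] at hrel hprim
  have hx0 := SpecF4.nz (coord X4) hs hs.pos dvd_rfl hprim
  have hno := no_root (m := m) hs hs5 hx0 (by
    have e : (2 ^ (m + 1) : ℤ) ^ 4 - 2 * (2 ^ (m + 1) : ℤ) ^ 2 + 4 =
        4 * (((2 ^ (2 * m + 1) : ℕ) : ℤ) ^ 2 - (2 ^ (2 * m + 1) : ℕ) + 1) := by
      push_cast
      have e1 : (2 : ℤ) ^ (2 * m + 1) = 2 * (2 ^ m) ^ 2 := by ring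
      have e2 : (2 : ℤ) ^ (m + 1) = 2 * 2 ^ m := by ring
      rw [e1, e2]; ring
    rw [e]; exact hsq.mul_left 4) hw hrel
  -- the involution
  have hAB : (ι a1 : GL (F4).Idx (AlgebraicClosure K)) * ι b1 = ι b1 * ι a1 := by
    have h5 : a1 * b1 = b1 * a1 := Subtype.ext (by
      rw [Subgroup.coe_mul, Subgroup.coe_mul, ha1, hb1, hab])
    rw [← Subgroup.coe_mul, ← Subgroup.coe_mul, ← map_mul, ← map_mul, h5]
  have hA2 : (ι a1 : GL (F4).Idx (AlgebraicClosure K)) ^ 2 = 1 := by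
    have h5 : a1 ^ 2 = 1 := Subtype.ext (by rw [Subgroup.coe_pow, ha1, ha2]; rfl)
    rw [← Subgroup.coe_pow, ← map_pow, h5, map_one]; rfl
  have haf : IsOfFinOrder (y * (ι b1 : GL (F4).Idx (AlgebraicClosure K)) * y⁻¹) := by
    rw [isOfFinOrder_iff_pow_eq_one]
    refine ⟨s, hs.pos, ?_⟩
    rw [conj_pow]
    have : (ι b1 : GL (F4).Idx (AlgebraicClosure K)) ^ s = 1 := by
      rw [← Subgroup.coe_pow, ← map_pow, ← hb1o, pow_orderOf_eq_one, map_one]; rfl
    rw [this]; simp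
  have hu1 := unip_one R 2 hLF H22.ChevLex.lexF4 (X := X4) hyH (SpecF4.triv R hyH haf) hx
    (by rw [hζ]; exact hno) (u := y * (ι a1 : GL (F4).Idx (AlgebraicClosure K)) * y⁻¹)
    (mul_mem (mul_mem hy (ι a1).2) (inv_mem hy)) (k := 1)
    (by
      calc y * (ι b1 : GL (F4).Idx (AlgebraicClosure K)) * y⁻¹ * (y * (ι a1 : GL (F4).Idx (AlgebraicClosure K)) * y⁻¹)
          = y * ((ι b1 : GL (F4).Idx (AlgebraicClosure K)) * ι a1) * y⁻¹ := by simp [mul_assoc]
        _ = y * ((ι a1 : GL (F4).Idx (AlgebraicClosure K)) * ι b1) * y⁻¹ := by rw [hAB]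
        _ = _ := by simp [mul_assoc]; rfl)
    (by rw [pow_one, conj_pow, hA2]; simp)
  have hA1 : (ι a1 : GL (F4).Idx (AlgebraicClosure K)) = 1 := by
    have : (ι a1 : GL (F4).Idx (AlgebraicClosure K)) = y⁻¹ * (y * ι a1 * y⁻¹) * y := by simp [mul_assoc]
    rw [this, hu1]; simp
  have hinj := map_inj (D := F4) K (AlgebraicClosure K)
  have : a1 = 1 := hinj (by
    rw [map_one]
    exact hA1)
  rw [← ha1, this]; rfl

end

end H47.ReeMain
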