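import Cfsg.Agent.Lib.H22.TwF4d
import Cfsg.Agent.Lib.H22.TorUniv
import Cfsg.Agent.Lib.H47.SpecF4c

/-!
The special isogeny of F4 in characteristic 2 and elements of the large Ree groups.
-/

set_option autoImplicit false
set_option linter.unusedVariables false
set_option linter.unusedSectionVars false
set_option maxRecDepth 10000

namespace H47.ReeSig

open H22.RGD H22.Coord H22.RCCheck H22.RCComb H22.ChevTri H22.ChevRel H22.ChevSys H22.ChevMain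
open H22.ChevStd H22.ChevSolv H22.ChevUni H47.ChevSub H47.Alcove H47.LangCent H47.TorAll H47.SemiTor
open H47.FixPt H22.ChevTorus H47.HomoTor H47.JorTor H47.UniFlag H22.LangChev H47.HomoCert H47.WEnum
open H47.MixEx H47.MixUp H22.St H22.TwChev H22.TwSt H22.TwF4 H22.TwX H22.TwB2c
open Cfsg.Lie (ChevalleyDatum)
open scoped MatrixGroups Matrix

local notation "F4" => Cfsg.Lie.chevF4
local notation "X4" => H22.PoinF4.rcxF4
local notation "Z4" => H22.ChevLex.lexF4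
local notation "eF" => H23.ChevExc.eF4

theorem rh_lt (r : Fin (F4).nroots) : (eF).rh r.val < (F4).nroots := by
  have h : ∀ r < 48, (eF).rh r < 48 := by decide +kernel
  exact h r r.2

section K

variable {K : Type*} [Field K] [CharP K 2] (R : Rel F4 K)
  (θ ψ : K →+* K) (hθ : Function.Surjective θ) (hψ : Function.Surjective ψ) (h2 : ∀ t, ψ t = θ t ^ 2)

/-- the special isogeny -/
noncomputable def sgm : ↥((F4).group K) →* ↥((F4).group K) :=
  (A R (H22.St.hmul_all _ memF4) θ ψ hθ hψ h2).σ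

theorem sgm_x {r : ℕ} (hr : r < (F4).nroots) (t : K) (h1 : xg R r t ∈ (F4).group K) :
    ((sgm R θ ψ hθ hψ h2 ⟨xg R r t, h1⟩ : ↥((F4).group K)) : GL (F4).Idx K) =
      xg R ((eF).rh r) (phi θ ψ r t) := by
  have h := (A R (H22.St.hmul_all _ memF4) θ ψ hθ hψ h2).σ_x r hr t
  have h3 := congrArg (Subtype.val) h
  refine Eq.trans h3 ?_
  show xg R ((eF).rh r) (1 * phi θ ψ r t) = _
  rw [one_mul]

theorem sgm_conj {a : ↥((F4).group K)} {r : ℕ} (hr : r < (F4).nroots) {c : K}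
    (h : (a : GL (F4).Idx K) * xg R r 1 * (a : GL (F4).Idx K)⁻¹ = xg R r c) :
    (sgm R θ ψ hθ hψ h2 a : GL (F4).Idx K) * xg R ((eF).rh r) 1 *
      (sgm R θ ψ hθ hψ h2 a : GL (F4).Idx K)⁻¹ = xg R ((eF).rh r) (phi θ ψ r c) := by
  have h3 : a * ⟨xg R r 1, xg_mem_group R hr 1⟩ * a⁻¹ = ⟨xg R r c, xg_mem_group R hr c⟩ := Subtype.ext h
  have h4 := congrArg (sgm R θ ψ hθ hψ h2) h3
  rw [map_mul, map_mul, map_inv] at h4
  have h5 := congrArg Subtype.val h4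
  rw [sgm_x R θ ψ hθ hψ h2 hr] at h5
  rw [← h5]
  simp only [Subgroup.coe_mul, Subgroup.coe_inv]
  rw [sgm_x R θ ψ hθ hψ h2 hr, map_one]

theorem sgm_H {a : ↥((F4).group K)} (ha : (a : GL (F4).Idx K) ∈ Hs R) :
    (sgm R θ ψ hθ hψ h2 a : GL (F4).Idx K) ∈ Hs R := by
  have h1 : a ∈ (grp R (X4).rc (H22.St.hmul_all _ memF4)).Hb :=
    H22.TorUniv.mem_Hb_of_θ Z4 certF4' (S := grp R (X4).rc (H22.St.hmul_all _ memF4)) ha
  have h3 := (A R (H22.St.hmul_all _ memF4) θ ψ hθ hψ h2).σH a h1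
  exact H22.TorUniv.θ_Hb X4 h3

/-- **The relation between the functional and the element of the Weyl group.** -/
theorem sig_rel {m : ℕ} (hθm : ∀ t, θ t = t ^ 2 ^ m) {g y : ↥((F4).group K)}
    (hg : sgm R θ ψ hθ hψ h2 g = g) {ζ : Kˣ} {x : Fin 4 → ℤ}
    (hH : ((y : GL (F4).Idx K) * g * (y : GL (F4).Idx K)⁻¹) ∈ Hs R)
    (hx : ∀ s : Fin (F4).nroots, ∀ t : K, ((y : GL (F4).Idx K) * g * (y : GL (F4).Idx K)⁻¹) * xg R s t *
      ((y : GL (F4).Idx K) * g * (y : GL (F4).Idx K)⁻¹)⁻¹ =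
        xg R s (((ζ ^ (ev (coord X4) x s) : Kˣ) : K) * t)) :
    ∃ w ∈ (comb X4).W, ∀ r : Fin (F4).nroots, (orderOf ζ : ℤ) ∣
      ev (coord X4) x (w ⟨(eF).rh r.val, rh_lt r⟩) - (2 ^ m * (eF).la r.val : ℕ) * ev (coord X4) x r := by
  set a : ↥((F4).group K) := y * g * y⁻¹ with ha
  have haH : (a : GL (F4).Idx K) ∈ Hs R := hH
  have hax : ∀ s : Fin (F4).nroots, ∀ t : K, (a : GL (F4).Idx K) * xg R s t * (a : GL (F4).Idx K)⁻¹ =
      xg R s (((ζ ^ (ev (coord X4) x s) : Kˣ) : K) * t) := hx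
  set sa := sgm R θ ψ hθ hψ h2 a with hsa
  have hsH : (sa : GL (F4).Idx K) ∈ Hs R := sgm_H R θ ψ hθ hψ h2 haH
  set z : ↥((F4).group K) := y * (sgm R θ ψ hθ hψ h2 y)⁻¹ with hz
  have hc : a * z = z * sa := by
    rw [hsa, ha, hz, map_mul, map_mul, map_inv, hg]; simp [mul_assoc]
  have hc' : (a : GL (F4).Idx K) * z = z * sa := congrArg Subtype.val hc
  have hΓ : (z : GL (F4).Idx K) ∈ (chevSys R X4).Γ := by rw [chevSys_Γ]; exact z.2
  have hHH : ∀ {b : GL (F4).Idx K}, b ∈ Hs R → b ∈ (chevSys R X4).H := by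
    intro b hb
    rw [chevSys_H, diagonalSubgroup_eq R X4]; exact hb
  obtain ⟨n, w, hn, hnc⟩ := transp (chevSys R X4) (hHH hsH) (hHH haH) hΓ hc'
  refine ⟨w, hn.2.1, fun r => ?_⟩
  obtain ⟨μ, hμ0, hμ⟩ := ConnCent.rep_conj R X4 hn (⟨(eF).rh r.val, rh_lt r⟩ : Fin (F4).nroots)
  have hr1 := hax r 1
  rw [mul_one] at hr1
  have hs1 := sgm_conj R θ ψ hθ hψ h2 r.2 hr1
  have e1 : (a : GL (F4).Idx K) * (n * xg R ((eF).rh r.val) 1 * n⁻¹) * (a : GL (F4).Idx K)⁻¹ =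
      n * ((sa : GL (F4).Idx K) * xg R ((eF).rh r.val) 1 * (sa : GL (F4).Idx K)⁻¹) * n⁻¹ := by
    calc (a : GL (F4).Idx K) * (n * xg R ((eF).rh r.val) 1 * n⁻¹) * (a : GL (F4).Idx K)⁻¹
        = (a * n) * xg R ((eF).rh r.val) 1 * ((a : GL (F4).Idx K) * n)⁻¹ := by simp [mul_assoc]
      _ = (n * (sa : GL (F4).Idx K)) * xg R ((eF).rh r.val) 1 * (n * (sa : GL (F4).Idx K))⁻¹ := by rw [hnc]
      _ = _ := by simp [mul_assoc]
  have hphi : phi θ ψ r.val (((ζ ^ (ev (coord X4) x r) : Kˣ) : K)) =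
      ((ζ ^ ((2 ^ m * (eF).la r.val : ℕ) * ev (coord X4) x r) : Kˣ) : K) := by
    rw [phi_eq θ ψ h2, hθm, mul_comm ((2 ^ m * (eF).la r.val : ℕ) : ℤ), zpow_mul, zpow_natCast,
      Units.val_pow_eq_pow_val, pow_mul]
  rw [hs1, hμ, hμ, hax, hphi] at e1
  have h6 := xg_inj R (X4).rc (w ⟨(eF).rh r.val, rh_lt r⟩).2 e1
  rw [mul_one, mul_comm μ] at h6
  have h7 := Units.ext (mul_right_cancel₀ hμ0 h6)
  rw [zpow_eq_zpow_iff_modEq] at h7
  exact h7.symm.dvd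

end K

/-! ### fixed points -/

section fixed

variable {K : Type*} [Field K] [Fintype K] {m : ℕ} (hK : Fintype.card K = 2 ^ (2 * m + 1)) [CharP K 2]
  (R : Rel F4 K)
  (θ ψ : K →+* K) (hθ : Function.Surjective θ) (hψ : Function.Surjective ψ) (h2 : ∀ t, ψ t = θ t ^ 2)
  (hθm : ∀ t, θ t = t ^ 2 ^ m)

include hK hθm in
theorem fixed {g : GL (F4).Idx K} (hg : g ∈ Cfsg.Lie.twistedF4 K (2 ^ m)) :
    ∃ h : ↥((F4).group K), (h : GL (F4).Idx K) = g ∧ sgm R θ ψ hθ hψ h2 h = h := by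
  have hψt : ∀ t, ψ t = t ^ 2 ^ (m + 1) := fun t => by rw [h2, hθm, ← pow_mul, pow_succ]
  have hfr : ∀ t : K, t ^ 2 ^ (2 * m + 1) = t := by
    intro t
    have := FiniteField.pow_card t
    rwa [hK] at this
  have i1 : ∀ t, θ (ψ t) = t := by
    intro t
    rw [hψt, hθm, ← pow_mul, ← pow_add, show m + 1 + m = 2 * m + 1 by ring, hfr]
  have i2 : ∀ t, ψ (θ t) = t := by
    intro t
    rw [hψt, hθm, ← pow_mul, ← pow_add, show m + (m + 1) = 2 * m + 1 by ring, hfr]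
  have hmm := H22.St.hmul_all (K := K) _ memF4
  have key : Cfsg.Lie.twistedF4 K (2 ^ m) ≤
      (H22.RGD.fx (sgm R θ ψ hθ hψ h2)).map ((F4).group K).subtype := by
    apply H22.TwX.gen_le (R := R) (Q := (X4).rc) (hmul := hmm)
    have hw : ∀ r s t, xs R hmm θ r s t = (St R hmm).wb (Cfsg.Lie.f4PairWord (2 ^ m) r s t) := by
      intro r s t
      unfold xs Cfsg.Lie.f4PairWord
      rw [hθm]
      simp [StG.wb]
    have hw1 : ∀ a b ab aab t u, xw R hmm θ ψ a b ab aab t u =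
        (St R hmm).wb (Cfsg.Lie.b2ClassWord (2 ^ m) a b ab aab t u) := by
      intro a b ab aab t u
      unfold xw W4 Cfsg.Lie.b2ClassWord
      rw [h2, hθm, hθm, ← pow_succ, ← pow_mul, mul_comm (2 ^ m) 2]
      simp [StG.wb, mul_assoc]
    rintro w (⟨t, rfl | rfl⟩ | ⟨t, u, rfl | rfl⟩)
    · have := ((m0 R hmm θ ψ hθ hψ h2 i2).2 ⟨t, rfl⟩).2
      rw [hw] at this
      exact this
    · have := ((n0 R hmm θ ψ hθ hψ h2 i2).2 ⟨t, rfl⟩).2
      rw [hw] at this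
      exact this
    · have := ((m1 R hmm θ ψ hθ hψ h2 i1 i2).2 ⟨t, u, rfl⟩).2
      rw [hw1] at this
      exact this
    · have := ((n1 R hmm θ ψ hθ hψ h2 i1 i2).2 ⟨t, u, rfl⟩).2
      rw [hw1] at this
      exact this
  obtain ⟨h, hh, e⟩ := key hg
  exact ⟨h, e, hh⟩

end fixed

/-! ### extension of the field -/

section ext

variable {K L : Type*} [Field K] [CharP K 2] [Field L] [CharP L 2] [Algebra K L]
  (R : Rel F4 K) (θ ψ : K →+* K) (hθ : Function.Surjective θ) (hψ : Function.Surjective ψ)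
  (h2 : ∀ t, ψ t = θ t ^ 2) (R' : Rel F4 L) (θ' ψ' : L →+* L) (hθ' : Function.Surjective θ')
  (hψ' : Function.Surjective ψ') (h2' : ∀ t, ψ' t = θ' t ^ 2)
  (hc : ∀ t, algebraMap K L (θ t) = θ' (algebraMap K L t))

include hc in
theorem compat (g : ↥((F4).group K)) :
    sgm R' θ' ψ' hθ' hψ' h2' (H22.ChevField.fieldHom F4 (algebraMap K L) g) =
      H22.ChevField.fieldHom F4 (algebraMap K L) (sgm R θ ψ hθ hψ h2 g) := by
  have hmap : ∀ (r : ℕ) (hr : r < (F4).nroots) (t : K),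
      H22.ChevField.fieldHom F4 (algebraMap K L) ⟨xg R r t, xg_mem_group R hr t⟩ =
        ⟨xg R' r (algebraMap K L t), xg_mem_group R' hr _⟩ := by
    intro r hr t
    apply Subtype.ext
    apply Units.ext
    rw [H22.ChevField.fieldHom_val]
    exact H22.ChevField.x_map _ r t
  have h1 : (⊤ : Subgroup ↥((F4).group K)) ≤ MonoidHom.eqLocus
      ((sgm R' θ' ψ' hθ' hψ' h2').comp (H22.ChevField.fieldHom F4 (algebraMap K L)))
      ((H22.ChevField.fieldHom F4 (algebraMap K L)).comp (sgm R θ ψ hθ hψ h2)) := by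
    rw [← (grp R (X4).rc (H22.St.hmul_all _ memF4)).gen, Subgroup.closure_le]
    rintro _ ⟨r, t, hr, rfl⟩
    change sgm R' θ' ψ' hθ' hψ' h2' (H22.ChevField.fieldHom F4 (algebraMap K L)
      ⟨xg R r t, xg_mem_group R hr t⟩) = H22.ChevField.fieldHom F4 (algebraMap K L)
      (sgm R θ ψ hθ hψ h2 ⟨xg R r t, xg_mem_group R hr t⟩)
    have e1 : sgm R θ ψ hθ hψ h2 ⟨xg R r t, xg_mem_group R hr t⟩ =
        ⟨xg R ((eF).rh r) (phi θ ψ r t), xg_mem_group R (rh_lt ⟨r, hr⟩) _⟩ :=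
      Subtype.ext (sgm_x R θ ψ hθ hψ h2 hr t _)
    rw [e1, hmap _ (rh_lt ⟨r, hr⟩), hmap _ hr]
    apply Subtype.ext
    rw [sgm_x R' θ' ψ' hθ' hψ' h2' hr]
    congr 1
    rw [phi_eq θ' ψ' h2', phi_eq θ ψ h2, ← hc, map_pow]
  exact h1 (Subgroup.mem_top g)

end ext

end H47.ReeSig
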