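import Cfsg.Agent.Lib.H47.ReeSig
import Cfsg.Agent.Lib.H47.ReeGo

/-!
The twisted Weyl group of type F4: roots do not vanish on elements of order dividing q^2 - q + 1.
-/

set_option autoImplicit false
set_option linter.unusedVariables false
set_option linter.unusedSectionVars false
set_option maxRecDepth 100000
set_option maxHeartbeats 2000000

namespace H47.ReeW

open H22.RGD H22.Coord H22.RCCheck H22.RCComb H47.Alcove H47.HomoCert H47.WEnum H22.PoinF4 H47.WEnumF4
open H22.Poincare H47.CycW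

/-! ### determinants -/

theorem det4 (M : List (List ℤ)) (h1 : M.length = 4) (h2 : ∀ r ∈ M, r.length = 4) :
    (Matrix.of fun (i j : Fin 4) => (M.getD i.val []).getD j.val 0).det = detL 4 M := by
  obtain ⟨r0, M, rfl⟩ := List.exists_cons_of_length_eq_add_one h1
  obtain ⟨r1, M, rfl⟩ := List.exists_cons_of_length_eq_add_one (by simpa using h1)
  obtain ⟨r2, M, rfl⟩ := List.exists_cons_of_length_eq_add_one (by simpa using h1)
  obtain ⟨r3, M, rfl⟩ := List.exists_cons_of_length_eq_add_one (by simpa using h1)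
  have hM : M = [] := by
    rw [← List.length_eq_zero_iff]; simpa using h1
  subst hM
  have hr : ∀ r : List ℤ, r.length = 4 → ∃ a b c d, r = [a, b, c, d] := by
    intro r hr
    obtain ⟨a, r, rfl⟩ := List.exists_cons_of_length_eq_add_one hr
    obtain ⟨b, r, rfl⟩ := List.exists_cons_of_length_eq_add_one (by simpa using hr)
    obtain ⟨c, r, rfl⟩ := List.exists_cons_of_length_eq_add_one (by simpa using hr)
    obtain ⟨d, r, rfl⟩ := List.exists_cons_of_length_eq_add_one (by simpa using hr)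
    have : r = [] := by rw [← List.length_eq_zero_iff]; simpa using hr
    subst this
    exact ⟨a, b, c, d, rfl⟩
  obtain ⟨a0, a1, a2, a3, rfl⟩ := hr r0 (h2 _ (by simp))
  obtain ⟨b0, b1, b2, b3, rfl⟩ := hr r1 (h2 _ (by simp))
  obtain ⟨c0, c1, c2, c3, rfl⟩ := hr r2 (h2 _ (by simp))
  obtain ⟨d0, d1, d2, d3, rfl⟩ := hr r3 (h2 _ (by simp))
  have e : (Matrix.of fun (i j : Fin 4) => (([[a0, a1, a2, a3], [b0, b1, b2, b3], [c0, c1, c2, c3],
      [d0, d1, d2, d3]] : List (List ℤ)).getD i.val []).getD j.val 0) =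
      !![a0, a1, a2, a3; b0, b1, b2, b3; c0, c1, c2, c3; d0, d1, d2, d3] := by
    ext i j
    fin_cases i <;> fin_cases j <;> rfl
  rw [e]
  simp [Matrix.det_succ_row_zero, Fin.sum_univ_succ, detL, Fin.succAbove, List.range_succ]

section gen

variable {Φ : Type*} {l : ℕ} {C : RootComb Φ (Fin l)} (K : CoordSys C)

theorem det_tau {w : Equiv.Perm Φ} (hw : w ∈ C.W) {M : List (List ℤ)} (h : RepM K w M) :
    LinearMap.det (tau K w) = (Matrix.of fun (i j : Fin l) => (M.getD i.val []).getD j.val 0).det := by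
  rw [← LinearMap.det_toMatrix', ← Matrix.det_transpose]
  congr 1
  ext i j
  rw [Matrix.transpose_apply, LinearMap.toMatrix'_apply, Matrix.of_apply]
  have e : (Pi.single i 1 : Fin l → ℤ) = un i := by
    funext k
    unfold un
    rw [Pi.single_apply]
  rw [e]
  have h1 := congrFun (h.2 i).2 j
  exact h1.symm

theorem refl_dvd {b : Φ} {g : Equiv.Perm Φ} (hg : IsRefl C b g) {x : Fin l → ℤ} {s : ℤ}
    (hb : s ∣ ev K x b) (a : Φ) : s ∣ ev K x (g a) - ev K x a := by
  obtain ⟨y, hy, hform⟩ := refl_form K hg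
  rw [← ev_act K x hg.mem, hform x, ev_sub, ev_smul]
  have : ev K x a - ev K x b * ev K y a - ev K x a = -(ev K x b * ev K y a) := by ring
  rw [this, dvd_neg]
  exact hb.mul_right _

end gen

/-! ### the relation -/

local notation "F4" => Cfsg.Lie.chevF4
local notation "X4" => H22.PoinF4.rcxF4
local notation "eF" => H23.ChevExc.eF4

/-- value of a functional -/
def vl (x : Fin 4 → ℤ) (c : List ℤ) : ℤ :=
  x 0 * c.getD 0 0 + x 1 * c.getD 1 0 + x 2 * c.getD 2 0 + x 3 * c.getD 3 0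

theorem vl_mc {x : Fin 4 → ℤ} {w : Equiv.Perm (Fin (F4).nroots)} (hw : w ∈ (comb X4).W) {M : List (List ℤ)}
    (hM : RepM (coord X4) w M) {c : List ℤ} (hc : c.length = 4) :
    (mc M c).length = 4 ∧ vl x (mc M c) = ∑ j : Fin 4, c.getD j.val 0 * act (coord X4) x w j := by
  refine ⟨by simp [mc]; exact hM.1, ?_⟩
  have h1 : ∀ i : Fin 4, (mc M c).getD i.val 0 = ∑ j : Fin 4, act (coord X4) (un i) w j * c.getD j.val 0 := by
    intro i
    have hi : i.val < M.length := by rw [hM.1]; exact i.2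
    have e : (mc M c).getD i.val 0 = dotl (M.getD i.val []) c := by
      unfold mc
      rw [List.getD_eq_getElem _ _ (by simpa using hi), List.getElem_map, List.getD_eq_getElem _ _ hi]
    rw [e, dotl_spec (hM.2 i).1 hc, (hM.2 i).2]
    rfl
  have h2 : ∀ j : Fin 4, act (coord X4) x w j = ∑ i : Fin 4, x i * act (coord X4) (un i) w j := by
    intro j
    show ev (coord X4) x (w ((comb X4).simple j)) = _
    unfold ev
    refine Finset.sum_congr rfl fun i _ => ?_
    congr 1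
    show _ = ev (coord X4) (un i) (w ((comb X4).simple j))
    rw [ev_un]
  have h3 : vl x (mc M c) = ∑ i : Fin 4, x i * (mc M c).getD i.val 0 := by
    unfold vl; rw [Fin.sum_univ_four]; rfl
  rw [h3]
  simp_rw [h1, h2, Finset.mul_sum]
  rw [Finset.sum_comm]
  refine Finset.sum_congr rfl fun j _ => Finset.sum_congr rfl fun i _ => by ring

section rel

variable {x : Fin 4 → ℤ} {w : Equiv.Perm (Fin (F4).nroots)} (hw : w ∈ (comb X4).W) {m : ℕ} {s : ℤ}
  (hrel : ∀ r : Fin (F4).nroots, s ∣ ev (coord X4) x (w ⟨(eF).rh r.val, ReeSig.rh_lt r⟩) -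
    (2 ^ m * (eF).la r.val : ℕ) * ev (coord X4) x r)

theorem simple_rh : ∀ k : Fin (F4).rank,
    (⟨(eF).rh ((comb X4).simple k).val, ReeSig.rh_lt _⟩ : Fin (F4).nroots) =
      (comb X4).simple (Fin.rev (n := 4) k : Fin 4) := by decide +kernel

theorem simple_la : ∀ k : Fin (F4).rank, (eF).la ((comb X4).simple k).val = if k.val < 2 then 2 else 1 := by
  decide +kernel

include hrel in
theorem act_rel (k : Fin 4) : s ∣ act (coord X4) x w (Fin.rev k) -
    (2 ^ m * (if k.val < 2 then 2 else 1) : ℕ) * x k := by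
  have h1 := hrel ((comb X4).simple k)
  rw [simple_rh k, simple_la k] at h1
  have h2 : ev (coord X4) x ((comb X4).simple k) = x k := ev_simple (coord X4) x k
  rw [h2] at h1
  exact h1

include hrel hw in
theorem nv_spec {M : List (List ℤ)} (hM : RepM (coord X4) w M) (c : List ℤ) :
    (nv M c).length = 4 ∧ s ∣ vl x (nv M c) - 2 ^ (m + 1) * vl x c := by
  have hT : (Tc c).length = 4 := rfl
  obtain ⟨h1, h2⟩ := vl_mc (x := x) hw hM hT
  refine ⟨h1, ?_⟩
  unfold nv
  rw [h2, Fin.sum_univ_four]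
  have a0 : s ∣ act (coord X4) x w (3 : Fin 4) - ((2 ^ m * 2 : ℕ) : ℤ) * x 0 := act_rel hrel (0 : Fin 4)
  have a1 : s ∣ act (coord X4) x w (2 : Fin 4) - ((2 ^ m * 2 : ℕ) : ℤ) * x 1 := act_rel hrel (1 : Fin 4)
  have a2 : s ∣ act (coord X4) x w (1 : Fin 4) - ((2 ^ m * 1 : ℕ) : ℤ) * x 2 := act_rel hrel (2 : Fin 4)
  have a3 : s ∣ act (coord X4) x w (0 : Fin 4) - ((2 ^ m * 1 : ℕ) : ℤ) * x 3 := act_rel hrel (3 : Fin 4)
  push_cast at a0 a1 a2 a3
  have t0 : (Tc c).getD (0 : Fin 4).val 0 = 2 * c.getD 3 0 := rfl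
  have t1 : (Tc c).getD (1 : Fin 4).val 0 = 2 * c.getD 2 0 := rfl
  have t2 : (Tc c).getD (2 : Fin 4).val 0 = c.getD 1 0 := rfl
  have t3 : (Tc c).getD (3 : Fin 4).val 0 = c.getD 0 0 := rfl
  rw [t0, t1, t2, t3]
  unfold vl
  have := dvd_add (dvd_add (a0.mul_left (c.getD 0 0)) (a1.mul_left (c.getD 1 0)))
    (dvd_add (a2.mul_left (2 * c.getD 2 0)) (a3.mul_left (2 * c.getD 3 0)))
  refine this.trans (dvd_of_eq ?_)
  ring

include hrel hw in
theorem hv_spec {M : List (List ℤ)} (hM : RepM (coord X4) w M) (cs : List ℤ) : ∀ {c : List ℤ}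
    (hc : c.length = 4), (hv M cs c).length = 4 ∧
      s ∣ vl x (hv M cs c) - hz cs (2 ^ (m + 1)) * vl x c := by
  induction cs with
  | nil => intro c hc; exact ⟨hc, by rw [hv, hz, one_mul, sub_self]; exact dvd_zero _⟩
  | cons a cs ih =>
    intro c hc
    obtain ⟨h1, h2⟩ := nv_spec hw hrel hM c
    obtain ⟨h3, h4⟩ := ih h1
    have hlen : (hv M (a :: cs) c).length = 4 := by
      rw [hv, List.length_zipWith, hc, h3, min_self]
    refine ⟨hlen, ?_⟩
    have hg : ∀ j < 4, (hv M (a :: cs) c).getD j 0 = a * c.getD j 0 + (hv M cs (nv M c)).getD j 0 := by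
      intro j hj
      rw [List.getD_eq_getElem _ _ (by omega), List.getD_eq_getElem c _ (by omega),
        List.getD_eq_getElem (hv M cs (nv M c)) _ (by omega)]
      simp only [hv, List.getElem_zipWith]
    have e : vl x (hv M (a :: cs) c) = a * vl x c + vl x (hv M cs (nv M c)) := by
      unfold vl
      rw [hg 0 (by norm_num), hg 1 (by norm_num), hg 2 (by norm_num), hg 3 (by norm_num)]
      ring
    rw [e, hz]
    have h5 := dvd_add h4 (h2.mul_left (hz cs (2 ^ (m + 1))))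
    refine h5.trans (dvd_of_eq ?_)
    ring

include hrel hw in
theorem kill_spec {M : List (List ℤ)} (hM : RepM (coord X4) w M) {cs : List ℤ} (hk : kill M cs = true)
    (j : Fin 4) : s ∣ hz cs (2 ^ (m + 1)) * x j := by
  unfold kill at hk
  rw [List.all_eq_true] at hk
  have h1 := hk j.val (List.mem_range.2 j.2)
  rw [beq_iff_eq] at h1
  obtain ⟨_, h2⟩ := hv_spec hw hrel hM cs (ue_length 4 j.val)
  rw [h1] at h2
  have e1 : vl x [0, 0, 0, 0] = 0 := by simp [vl]
  have e2 : vl x (ue 4 j.val) = x j := by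
    fin_cases j <;> simp [vl, ue, List.range_succ]
  rw [e1, e2, zero_sub, dvd_neg] at h2
  exact h2

end rel

/-- **The determinant.** -/
theorem det_one {x : Fin 4 → ℤ} {m : ℕ} {s : ℕ} (hs : s.Prime) (hs5 : 5 ≤ s) (hx0 : ¬ ∀ j, (s : ℤ) ∣ x j)
    (hsq : (s : ℤ) ∣ (2 ^ (m + 1) : ℤ) ^ 4 - 2 * (2 ^ (m + 1) : ℤ) ^ 2 + 4)
    {w : Equiv.Perm (Fin (F4).nroots)} (hw : w ∈ (comb X4).W)
    (hrel : ∀ r : Fin (F4).nroots, (s : ℤ) ∣ ev (coord X4) x (w ⟨(eF).rh r.val, ReeSig.rh_lt r⟩) -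
      (2 ^ m * (eF).la r.val : ℕ) * ev (coord X4) x r) : LinearMap.det (tau (coord X4) w) = 1 := by
  obtain ⟨M, hM, hchk⟩ := all_W (coord X4) rowsOk okReps_F4 goR w hw
  have hsp := Nat.prime_iff_prime_int.1 hs
  push Not at hx0
  obtain ⟨j0, hj0⟩ := hx0
  have h24 : ¬ (s : ℤ) ∣ 24 := by
    intro h
    have h1 : s ∣ 24 := by exact_mod_cast h
    rw [show 24 = 2 ^ 3 * 3 from rfl, hs.dvd_mul] at h1
    rcases h1 with h1 | h1
    · have := Nat.le_of_dvd (by norm_num) (hs.dvd_of_dvd_pow h1); omega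
    · have := Nat.le_of_dvd (by norm_num) h1; omega
  have key : ∀ cs : List ℤ, kill M cs = true → (s : ℤ) ∣ hz cs (2 ^ (m + 1)) := fun cs hk =>
    (hsp.dvd_mul.1 (kill_spec hw hrel hM hk j0)).resolve_right hj0
  generalize hl : (2 ^ (m + 1) : ℤ) = l at *
  unfold chkR at hchk
  rw [Bool.or_eq_true, Bool.or_eq_true, Bool.or_eq_true, beq_iff_eq] at hchk
  rcases hchk with h | h | h | h
  · rw [det_tau (coord X4) hw hM]
    exact (det4 M hM.1 hM.row_length).trans h
  · exfalso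
    have h1 := key _ h
    simp only [hz] at h1
    apply h24
    have := dvd_add (h1.mul_left (-2 - l ^ 2)) (hsq.mul_left (4 + l ^ 2))
    refine this.trans (dvd_of_eq ?_)
    ring
  · exfalso
    have h1 := key _ h
    simp only [hz] at h1
    apply h24
    have := dvd_add (h1.mul_left (3 * (-2 - 2 * l - l ^ 2))) (hsq.mul_left (3 * l ^ 2))
    refine this.trans (dvd_of_eq ?_)
    ring
  · exfalso
    have h1 := key _ h
    simp only [hz] at h1
    apply h24
    have := dvd_add (h1.mul_left (3 * (-2 + 2 * l - l ^ 2))) (hsq.mul_left (3 * l ^ 2))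
    refine this.trans (dvd_of_eq ?_)
    ring

/-- **Roots do not vanish.** -/
theorem no_root {x : Fin 4 → ℤ} {m : ℕ} {s : ℕ} (hs : s.Prime) (hs5 : 5 ≤ s) (hx0 : ¬ ∀ j, (s : ℤ) ∣ x j)
    (hsq : (s : ℤ) ∣ (2 ^ (m + 1) : ℤ) ^ 4 - 2 * (2 ^ (m + 1) : ℤ) ^ 2 + 4)
    {w : Equiv.Perm (Fin (F4).nroots)} (hw : w ∈ (comb X4).W)
    (hrel : ∀ r : Fin (F4).nroots, (s : ℤ) ∣ ev (coord X4) x (w ⟨(eF).rh r.val, ReeSig.rh_lt r⟩) -
      (2 ^ m * (eF).la r.val : ℕ) * ev (coord X4) x r) (b : Fin (F4).nroots) :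
    ¬ (s : ℤ) ∣ ev (coord X4) x b := by
  intro hb
  obtain ⟨L, i, hLi⟩ := H22.ChevSys.exists_simple_conj X4 b
  obtain ⟨g, hg⟩ : ∃ g, IsRefl (comb X4) b g := ⟨_, L, i, hLi, rfl⟩
  have h1 := det_one hs hs5 hx0 hsq hw hrel
  have h2 := det_one hs hs5 hx0 hsq ((comb X4).W.mul_mem hg.mem hw) (by
    intro a
    have h3 : ∀ a, (s : ℤ) ∣ ev (coord X4) x (g a) - ev (coord X4) x a := refl_dvd (coord X4) hg hb
    have h4 := dvd_add (h3 (w ⟨(eF).rh a.val, ReeSig.rh_lt a⟩)) (hrel a)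
    rwa [sub_add_sub_cancel] at h4)
  rw [tau_mul (coord X4) hg.mem, map_mul, det_isRefl (coord X4) hg, h1] at h2
  norm_num at h2

end H47.ReeW
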