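import Mathlib

/-! The centralizer of a semisimple endomorphism over a finite field has surjective determinant. -/

set_option autoImplicit false
set_option linter.unusedVariables false

namespace H47.SemiDet

open Polynomial Module

theorem exists_commuting_det {F V : Type*} [Field F] [Finite F] [AddCommGroup V] [Module F V] [FiniteDimensional F V]
    [Nontrivial V] (f : Module.End F V) (hf : f.IsSemisimple) (c : F) (hc : c ≠ 0) :
    ∃ s : V ≃ₗ[F] V, (∀ v, s (f v) = f (s v)) ∧ LinearMap.det (s : V →ₗ[F] V) = c := by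
  classical
  have hss : IsSemisimpleModule F[X] (AEval' f) := hf
  have hnt : Nontrivial (AEval' f) := (AEval'.of f).symm.toEquiv.nontrivial
  obtain ⟨S, hS⟩ := IsSemisimpleModule.exists_simple_submodule F[X] (AEval' f)
  obtain ⟨T, hT⟩ := exists_isCompl S
  obtain ⟨I, hI, ⟨e⟩⟩ := isSimpleModule_iff_quot_maximal.mp hS
  let E : AEval' f ≃ₗ[F[X]] (F[X] ⧸ I) × T :=
    (Submodule.prodEquivOfIsCompl S T hT).symm.trans (LinearEquiv.prodCongr e (LinearEquiv.refl _ _))
  let _ : Field (F[X] ⧸ I) := Ideal.Quotient.field I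
  have hfin1 : Module.Finite F (F[X] ⧸ I) := by
    refine Module.Finite.of_surjective ((LinearMap.fst F (F[X] ⧸ I) T) ∘ₗ (E.restrictScalars F : AEval' f →ₗ[F] (F[X] ⧸ I) × T)) ?_
    intro x
    refine ⟨E.symm (x, 0), ?_⟩
    simp
  have hfin2 : Module.Finite F T := by
    refine Module.Finite.of_surjective ((LinearMap.snd F (F[X] ⧸ I) T) ∘ₗ (E.restrictScalars F : AEval' f →ₗ[F] (F[X] ⧸ I) × T)) ?_
    intro x
    refine ⟨E.symm (0, x), ?_⟩
    simp
  have hfin3 : Finite (F[X] ⧸ I) := Module.finite_of_finite F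
  obtain ⟨k, hk⟩ := FiniteField.norm_surjective F (F[X] ⧸ I) c
  have hk0 : k ≠ 0 := by
    rintro rfl
    rw [Algebra.norm_zero] at hk
    exact hc hk.symm
  let mk : (F[X] ⧸ I) ≃ₗ[F[X]] (F[X] ⧸ I) := (LinearEquiv.smulOfNeZero (F[X] ⧸ I) (F[X] ⧸ I) k hk0).restrictScalars F[X]
  let sM : AEval' f ≃ₗ[F[X]] AEval' f := E.trans ((LinearEquiv.prodCongr mk (LinearEquiv.refl F[X] T)).trans E.symm)
  let s : V ≃ₗ[F] V := (AEval'.of f).trans ((sM.restrictScalars F).trans (AEval'.of f).symm)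
  refine ⟨s, ?_, ?_⟩
  · intro v
    simp only [s, LinearEquiv.trans_apply, LinearEquiv.restrictScalars_apply]
    rw [← AEval'.X_smul_of, map_smul, AEval'.of_symm_X_smul]
  · have h1 : (s : V →ₗ[F] V) = ((AEval'.of f).symm : AEval' f →ₗ[F] V) ∘ₗ ((sM.restrictScalars F : AEval' f ≃ₗ[F] AEval' f) : AEval' f →ₗ[F] AEval' f) ∘ₗ
        ((AEval'.of f).symm.symm : V →ₗ[F] AEval' f) := rfl
    rw [h1, LinearMap.det_conj]
    have h2 : ((sM.restrictScalars F : AEval' f ≃ₗ[F] AEval' f) : AEval' f →ₗ[F] AEval' f) =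
        ((E.restrictScalars F).symm : ((F[X] ⧸ I) × T) →ₗ[F] AEval' f) ∘ₗ
        (LinearMap.prodMap (LinearMap.mulLeft F k) (LinearMap.id : T →ₗ[F] T)) ∘ₗ
        ((E.restrictScalars F).symm.symm : AEval' f →ₗ[F] ((F[X] ⧸ I) × T)) := by
      ext x
      rfl
    rw [h2, LinearMap.det_conj, LinearMap.det_prodMap, LinearMap.det_id, mul_one, ← hk]
    rfl

theorem isSemisimple_of_pow_eq_one {F V : Type*} [Field F] [AddCommGroup V] [Module F V] [FiniteDimensional F V]
    (f : Module.End F V) (m : ℕ) (hm : (m : F) ≠ 0) (hf : f ^ m = 1) : f.IsSemisimple := by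
  apply Module.End.isSemisimple_of_squarefree_aeval_eq_zero (p := X ^ m - 1)
  · exact (X_pow_sub_one_separable_iff.mpr hm).squarefree
  · simp [hf]

end H47.SemiDet
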